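import Cfsg.Agent.Chev.UCE.Cert

/-!
# Lifting certificates for type G2
-/

set_option autoImplicit false

namespace Cfsg.Agent.Chev.UCE

open Cfsg.Lie

/-- Table. -/
def posG2 : List (List ℕ) :=
  [
    [0, 70, 70, 71, 70, 71, 70, 71, 69, 72, 71, 0],
    [70, 0, 83, 57, 83, 57, 83, 17, 83, 137, 0, 97],
    [70, 83, 0, 57, 83, 57, 83, 44, 83, 0, 31, 96],
    [71, 57, 57, 0, 43, 71, 29, 71, 0, 85, 71, 99],
    [70, 83, 83, 43, 0, 16, 83, 0, 83, 124, 151, 97],
    [71, 57, 57, 71, 16, 0, 0, 71, 139, 85, 71, 98],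
    [70, 83, 83, 29, 83, 0, 0, 152, 83, 111, 111, 97],
    [71, 17, 44, 71, 0, 71, 152, 0, 125, 85, 71, 98],
    [69, 83, 83, 0, 83, 139, 83, 125, 0, 111, 111, 97],
    [72, 137, 0, 85, 124, 85, 111, 85, 111, 0, 85, 98],
    [71, 0, 31, 71, 151, 71, 111, 71, 111, 85, 0, 98],
    [0, 97, 96, 99, 97, 98, 97, 98, 97, 98, 98, 0]]

/-- Table. -/
def torG2123 : List (List ℕ) :=
  [
    [0, 167, 167, 167, 167, 167, 167, 167, 167, 167, 167, 0],
    [89, 0, 89, 89, 89, 89, 89, 89, 89, 89, 0, 89],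
    [143, 143, 0, 143, 143, 143, 143, 143, 143, 0, 143, 143],
    [141, 141, 141, 0, 141, 141, 141, 141, 0, 141, 141, 141],
    [115, 115, 115, 115, 0, 115, 115, 0, 115, 115, 115, 115],
    [87, 87, 87, 87, 87, 0, 0, 87, 87, 87, 87, 87],
    [87, 87, 87, 87, 87, 0, 0, 87, 87, 87, 87, 87],
    [115, 115, 115, 115, 0, 115, 115, 0, 115, 115, 115, 115],
    [141, 141, 141, 0, 141, 141, 141, 141, 0, 141, 141, 141],
    [143, 143, 0, 143, 143, 143, 143, 143, 143, 0, 143, 143],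
    [89, 0, 89, 89, 89, 89, 89, 89, 89, 89, 0, 89],
    [0, 167, 167, 167, 167, 167, 167, 167, 167, 167, 167, 0]]

/-- The configuration. -/
def cfgG2Any : Cfg :=
  ⟨[1, 2, 3], fun C => C == 0, fun _ => false, false, true⟩

/-- Table. -/
def killG2Any : List (ℕ × ℕ × KW) := []

/-- Table. -/
def selfG2Any : List SW :=
  [
    .cheap 71,
    .cheap 97,
    .cheap 83,
    .cheap 71,
    .cheap 97,
    .cheap 98,
    .cheap 70,
    .cheap 71,
    .cheap 83,
    .cheap 85,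
    .cheap 71,
    .cheap 97]

/-- Table. -/
def famG2Any : List FW :=
  [
    .tor 71,
    .tor 83,
    .tor 83,
    .tor 83,
    .tor 83,
    .tor 83,
    .tor 83,
    .tor 83,
    .tor 83,
    .tor 83,
    .tor 83,
    .tor 71]

/-- The witnesses. -/
def witG2Any : Wit := ⟨posG2, torG2123, killG2Any, selfG2Any, famG2Any⟩

theorem certG2Any : certOK chevG2 cfgG2Any witG2Any certG2 = true := by decide +kernel

end Cfsg.Agent.Chev.UCE
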