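import Cfsg.Agent.Chev.UCE.TabB2
import Cfsg.Agent.Chev.UCE.TabG2
import Cfsg.Agent.Chev.UCE.TabD4
import Cfsg.Agent.Chev.UCE.TabF4
import Cfsg.Agent.Chev.Rules
import Cfsg.Agent.CentralExt.LacedMultiplier
import Cfsg.Agent.CentralExt.LacedE6
import Cfsg.Agent.CentralExt.LacedE7
import Cfsg.Agent.CentralExt.LacedE8
import Cfsg.Agent.ChevGrp.PerfectData
import Cfsg.Agent.ChevGrp.Unimodular

/-!
# Central extensions of the groups presented by (R1), (R2)

Over a large enough field they split; hence the multipliers and the universal lifting property.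
-/

set_option autoImplicit false

namespace Cfsg.Agent.Chev.UCE

open Cfsg.Lie Cfsg.Agent.ChevGrp Cfsg.Agent.CentralExt
open Cfsg.Agent.CentralExt.Laced (IsCentralMap lift_comm_eq)
open scoped commutatorElement

universe u v w

variable {F : Type u} [Field F]

/-! ## Fields -/

theorem exists_pow_ne_one {m : ℕ} (hm : 0 < m) (s : Finset F) (hs : m + 1 < s.card) :
    ∃ a : F, a ≠ 0 ∧ a ^ m ≠ 1 := by
  classical
  by_contra h
  simp only [not_exists, not_and, not_not] at h
  have hsub : s ⊆ insert 0 (Polynomial.nthRoots m (1 : F)).toFinset := fun a _ => by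
    rcases eq_or_ne a 0 with rfl | ha
    · simp
    · simp [Polynomial.mem_nthRoots hm, h a ha]
  have h1 := (Finset.card_le_card hsub).trans (Finset.card_insert_le _ _)
  have h2 := (Polynomial.nthRoots m (1 : F)).toFinset_card_le
  have h3 := Polynomial.card_nthRoots m (1 : F)
  omega

theorem exists_five (s : Finset F) (hs : 4 < s.card) :
    ∃ a : F, a ≠ 0 ∧ a + 1 ≠ 0 ∧ a * a + a + 1 ≠ 0 := by
  classical
  open Polynomial in
  set p : F[X] := X * (X + C 1) * (X ^ 2 + X + C 1) with hp
  have hm : p.Monic := by rw [hp]; monicity!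
  have hd : p.natDegree ≤ 4 := by rw [hp]; compute_degree!
  by_contra h
  simp only [not_exists, not_and, not_not] at h
  have hsub : s ⊆ p.roots.toFinset := fun a _ => by
    rw [Multiset.mem_toFinset, Polynomial.mem_roots hm.ne_zero, Polynomial.IsRoot.def, hp]
    simp only [Polynomial.eval_mul, Polynomial.eval_add, Polynomial.eval_pow, Polynomial.eval_X,
      Polynomial.eval_C, mul_eq_zero]
    rcases eq_or_ne a 0 with ha | ha
    · exact Or.inl (Or.inl ha)
    · rcases eq_or_ne (a + 1) 0 with hb | hb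
      · exact Or.inl (Or.inr hb)
      · exact Or.inr (by rw [pow_two]; exact h a ha hb)
  have h1 := Finset.card_le_card hsub
  have h2 := p.roots.toFinset_card_le
  have h3 := p.card_roots'
  omega

theorem exists_ne_zero_one (s : Finset F) (hs : 2 < s.card) : ∃ a : F, a ≠ 0 ∧ a ≠ 1 := by
  obtain ⟨a, h1, h2⟩ := exists_pow_ne_one (F := F) (m := 1) one_pos s hs
  exact ⟨a, h1, by simpa using h2⟩

theorem cast_eq_zero_iff {p : ℕ} (hp : p.Prime) (h : (p : F) = 0) (C : ℤ) :
    (C : F) = 0 ↔ (p : ℤ) ∣ C := by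
  haveI : CharP F p := by
    rw [← CharP.ringChar_of_prime_eq_zero hp h]
    exact ringChar.charP F
  exact CharP.intCast_eq_zero_iff F p C

theorem field_cases (h : 2 < Nat.card F ∨ Infinite F) :
    (∃ s : Finset F, 3 < s.card ∧ (2 : F) = 0) ∨ (∃ s : Finset F, 4 < s.card ∧ (2 : F) ≠ 0) ∨
      ((∀ v : F, v = 0 ∨ v = 1 ∨ v = -1) ∧ (3 : F) = 0) := by
  classical
  suffices hh : (∃ s : Finset F, 4 < s.card) ∨ (∃ s : Finset F, 3 < s.card ∧ (2 : F) = 0) ∨
      ((∀ v : F, v = 0 ∨ v = 1 ∨ v = -1) ∧ (3 : F) = 0) by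
    rcases hh with ⟨s, hs⟩ | h | h
    · by_cases h2 : (2 : F) = 0
      · exact Or.inl ⟨s, by omega, h2⟩
      · exact Or.inr (Or.inl ⟨s, hs, h2⟩)
    · exact Or.inl h
    · exact Or.inr (Or.inr h)
  rcases fintypeOrInfinite F with hf | hi
  · have hc : 2 < Fintype.card F := by
      rcases h with h | h
      · rwa [Nat.card_eq_fintype_card] at h
      · exact absurd h (by rw [not_infinite_iff_finite]; exact Finite.of_fintype F)
    have hz := Nat.cast_card_eq_zero F
    by_cases h5 : 4 < Fintype.card F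
    · exact Or.inl ⟨Finset.univ, h5⟩
    by_cases h4 : Fintype.card F = 4
    · rw [h4] at hz
      refine Or.inr (Or.inl ⟨Finset.univ, by rw [Finset.card_univ, h4]; omega, ?_⟩)
      have : (2 : F) * 2 = 0 := by push_cast at hz; linear_combination hz
      exact mul_self_eq_zero.1 this
    · have e : Fintype.card F = 3 := by omega
      refine Or.inr (Or.inr ⟨fun v => ?_, ?_⟩)
      · have hv := FiniteField.pow_card v
        rw [e] at hv
        have h0 : v * ((v - 1) * (v + 1)) = 0 := by linear_combination hv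
        rcases mul_eq_zero.1 h0 with h | h
        · exact Or.inl h
        · rcases mul_eq_zero.1 h with h | h
          · exact Or.inr (Or.inl (sub_eq_zero.1 h))
          · exact Or.inr (Or.inr (eq_neg_of_add_eq_zero_left h))
      · rw [e] at hz
        exact_mod_cast hz
  · exact Or.inl ((Infinite.exists_subset_card_eq F 5).imp fun s hs => by omega)

theorem fits_pow12 (s : Finset F) (hs : 3 < s.card) :
    ∀ m ∈ [1, 2], ∃ a : F, a ≠ 0 ∧ a ^ m ≠ 1 := by
  intro m hm
  simp only [List.mem_cons, List.not_mem_nil, or_false] at hm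
  exact exists_pow_ne_one (by omega) s (by omega)

theorem fits_three (h : ∀ v : F, v = 0 ∨ v = 1 ∨ v = -1) (h3 : (3 : F) = 0) (z nz : ℤ → Bool)
    (hz : z = fun C => C % 3 == 0) (hnz : nz = fun C => C % 3 != 0) :
    Fits F ⟨[1, 3], z, nz, true, false⟩ where
  pow m hm := by
    have h1 : (-1 : F) ≠ 1 := fun e => one_ne_zero (by linear_combination h3 + e)
    simp only [List.mem_cons, List.not_mem_nil, or_false] at hm
    refine ⟨-1, neg_ne_zero.2 one_ne_zero, ?_⟩
    rcases hm with rfl | rfl
    · rwa [pow_one]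
    · rwa [show (-1 : F) ^ 3 = -1 by ring]
  zero C hC := by
    subst hz
    rw [cast_eq_zero_iff (p := 3) Nat.prime_three (by exact_mod_cast h3)]
    simp only [beq_iff_eq, bne_iff_ne] at hC
    omega
  nonzero C hC := by
    subst hnz
    rw [Ne, cast_eq_zero_iff (p := 3) Nat.prime_three (by exact_mod_cast h3)]
    simp only [beq_iff_eq, bne_iff_ne] at hC
    omega
  three _ := ⟨h, h3⟩
  five h := absurd h (by simp)

theorem fits_two (s : Finset F) (hs : 3 < s.card) (h2 : (2 : F) = 0) (z nz : ℤ → Bool)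
    (hz : z = fun C => C % 2 == 0) (hnz : nz = fun C => C % 2 != 0) :
    Fits F ⟨[1, 2], z, nz, false, false⟩ where
  pow := fits_pow12 s hs
  zero C hC := by
    subst hz
    rw [cast_eq_zero_iff (p := 2) Nat.prime_two (by exact_mod_cast h2)]
    simp only [beq_iff_eq, bne_iff_ne] at hC
    omega
  nonzero C hC := by
    subst hnz
    rw [Ne, cast_eq_zero_iff (p := 2) Nat.prime_two (by exact_mod_cast h2)]
    simp only [beq_iff_eq, bne_iff_ne] at hC
    omega
  three h := absurd h (by simp)
  five h := absurd h (by simp)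

theorem fits_odd (s : Finset F) (hs : 3 < s.card) (h2 : (2 : F) ≠ 0) (z nz : ℤ → Bool)
    (hz : z = fun C => C == 0) (hnz : nz = fun C => C.natAbs == 1 || C.natAbs == 2) (big : Bool)
    (hbig : big = true → ∃ a : F, a ≠ 0 ∧ a + 1 ≠ 0 ∧ a * a + a + 1 ≠ 0) :
    Fits F ⟨[1, 2], z, nz, false, big⟩ where
  pow := fits_pow12 s hs
  zero C hC := by
    subst hz
    simp only [beq_iff_eq] at hC
    rw [hC, Int.cast_zero]
  nonzero C hC := by
    subst hnz
    simp only [Bool.or_eq_true, beq_iff_eq] at hC
    rcases hC with h | h <;> rcases Int.natAbs_eq C with e | e <;> rw [e, h] <;> simp [h2]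
  three h := absurd h (by simp)
  five := hbig

/-! ## Lifting the relations -/

variable {E : Type v} {G : Type w} [Group E] [Group G]

theorem exists_sys_B2 (S : Sys chevB2 F G) {π : E →* G} (hc : IsCentralMap π)
    (hπ : Function.Surjective π) (h : 2 < Nat.card F ∨ Infinite F) :
    ∃ T : Sys chevB2 F E, ∀ r < chevB2.nroots, ∀ t, π (T.x r t) = S.x r t := by
  have hS : Rules chevB2 F := rules_of_mem F (by simp)
  obtain ⟨len, hR⟩ := hS.root
  rcases field_cases h with ⟨s, hs, h2⟩ | ⟨s, hs, h2⟩ | ⟨hv, h3⟩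
  · exact exists_sys_of_cert hc hS hR (fits_two s hs h2 _ _ rfl rfl) hπ validB2 rfl certB2Two
  · exact exists_sys_of_cert hc hS hR (fits_odd s (by omega) h2 _ _ rfl rfl true
      fun _ => exists_five s hs) hπ validB2 rfl certB2Odd
  · exact exists_sys_of_cert hc hS hR (fits_three hv h3 _ _ rfl rfl) hπ validB2 rfl certB2Three

theorem exists_sys_F4 (S : Sys chevF4 F G) {π : E →* G} (hc : IsCentralMap π)
    (hπ : Function.Surjective π) (h : 2 < Nat.card F ∨ Infinite F) :
    ∃ T : Sys chevF4 F E, ∀ r < chevF4.nroots, ∀ t, π (T.x r t) = S.x r t := by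
  have hS : Rules chevF4 F := rules_of_mem F (by simp)
  obtain ⟨len, hR⟩ := hS.root
  rcases field_cases h with ⟨s, hs, h2⟩ | ⟨s, hs, h2⟩ | ⟨hv, h3⟩
  · exact exists_sys_of_cert hc hS hR (fits_two s hs h2 _ _ rfl rfl) hπ validF4 rfl certF4Two
  · exact exists_sys_of_cert hc hS hR (fits_odd s (by omega) h2 _ _ rfl rfl false
      fun h => absurd h (by simp)) hπ validF4 rfl certF4Odd
  · exact exists_sys_of_cert hc hS hR (fits_three hv h3 _ _ rfl rfl) hπ validF4 rfl certF4Three

theorem exists_sys_D4 (S : Sys chevD4 F G) {π : E →* G} (hc : IsCentralMap π)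
    (hπ : Function.Surjective π) (h : 2 < Nat.card F ∨ Infinite F) :
    ∃ T : Sys chevD4 F E, ∀ r < chevD4.nroots, ∀ t, π (T.x r t) = S.x r t := by
  have hS : Rules chevD4 F := rules_of_mem F (by simp)
  obtain ⟨len, hR⟩ := hS.root
  have hany : ∀ s : Finset F, 3 < s.card → Fits F cfgD4Any := fun s hs =>
    { pow := fits_pow12 s hs
      zero := fun C hC => by
        simp only [cfgD4Any, beq_iff_eq] at hC
        rw [hC, Int.cast_zero]
      nonzero := fun C hC => by
        simp only [cfgD4Any, beq_iff_eq] at hC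
        rcases Int.natAbs_eq C with e | e <;> rw [e, hC] <;> simp
      three := fun h => absurd h (by simp [cfgD4Any])
      five := fun h => absurd h (by simp [cfgD4Any]) }
  rcases field_cases h with ⟨s, hs, -⟩ | ⟨s, hs, -⟩ | ⟨hv, h3⟩
  · exact exists_sys_of_cert hc hS hR (hany s hs) hπ validD4 rfl certD4Any
  · exact exists_sys_of_cert hc hS hR (hany s (by omega)) hπ validD4 rfl certD4Any
  · exact exists_sys_of_cert hc hS hR (fits_three hv h3 _ _ rfl rfl) hπ validD4 rfl certD4Three

theorem exists_sys_G2 (S : Sys chevG2 F G) {π : E →* G} (hc : IsCentralMap π)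
    (hπ : Function.Surjective π) (s : Finset F) (hs : 4 < s.card) :
    ∃ T : Sys chevG2 F E, ∀ r < chevG2.nroots, ∀ t, π (T.x r t) = S.x r t := by
  have hS : Rules chevG2 F := rules_of_mem F (by simp)
  obtain ⟨len, hR⟩ := hS.root
  have hfit : Fits F cfgG2Any :=
    { pow := fun m hm => by
        simp only [cfgG2Any, List.mem_cons, List.not_mem_nil, or_false] at hm
        exact exists_pow_ne_one (by omega) s (by omega)
      zero := fun C hC => by
        simp only [cfgG2Any, beq_iff_eq] at hC
        rw [hC, Int.cast_zero]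
      nonzero := fun C hC => absurd hC (by simp [cfgG2Any])
      three := fun h => absurd h (by simp [cfgG2Any])
      five := fun _ => exists_five s hs }
  exact exists_sys_of_cert hc hS hR hfit hπ validG2 rfl certG2Any

/-! ## Sections -/

variable {D : ChevalleyDatum}

/-- Every central extension of the group presented by (R1), (R2) splits. -/
def Splits (D : ChevalleyDatum) (F : Type u) [Field F] : Prop :=
  ∀ (E : Type v) [Group E] (π : E →* D.SteinbergCover F), Function.Surjective π → IsCentralMap π →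
    ∃ τ : D.SteinbergCover F →* E, π.comp τ = MonoidHom.id _

theorem splits_of_sys (hS : Rules D F)
    (h : ∀ (E : Type v) [Group E] (π : E →* D.SteinbergCover F), Function.Surjective π →
      IsCentralMap π →
      ∃ T : Sys D F E, ∀ r < D.nroots, ∀ t, π (T.x r t) = (Cover.scSys hS).x r t) :
    Splits.{u, v} D F := by
  intro E _ π hπ hc
  obtain ⟨len, hR⟩ := hS.root
  obtain ⟨T, hT⟩ := h E π hπ hc
  set f : Fin D.nroots × F → E := fun p => T.x p.1 p.2 with hf
  set g : ℕ → F → E := fun r t => if r < D.nroots then T.x r t else 1 with hg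
  have hX : ∀ (r : ℕ) (t : F), FreeGroup.lift f (D.stX r t) = g r t := by
    intro r t
    by_cases hr : r < D.nroots
    · simp [hg, hr, ChevalleyDatum.stX, hf]
    · simp [hg, hr, ChevalleyDatum.stX]
  have hkill : ∀ z ∈ D.steinbergRelsAB F, FreeGroup.lift f z = 1 := by
    rintro z (⟨r, t₁, t₂, hr, rfl⟩ | ⟨r, s, t, u, hr, hs, h1, h2, rfl⟩)
    · simp only [map_mul, map_inv, hX, hg, hr, if_true]
      exact mul_inv_eq_one.2 (T.x_add r hr t₁ t₂)
    · simp only [map_mul, map_inv, hX, stWord_lift _ _ hX]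
      have e : ((D.commWord F r s t u).map fun p => g p.1 p.2).prod =
          ((D.commWord F r s t u).map fun p => T.x p.1 p.2).prod := by
        refine congrArg List.prod (List.map_congr_left fun p hp => ?_)
        simp only [ChevalleyDatum.commWord, List.mem_map] at hp
        obtain ⟨c, hc', rfl⟩ := hp
        simp [hg, (hR.commTerms_vec r hr s hs h1 h2 c hc').1]
      rw [e]
      simp only [hg, hr, hs, if_true]
      rw [mul_inv_eq_one, mul_assoc, mul_assoc, T.comm r hr s hs h1 h2 t u]
      simp [mul_assoc]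
  refine ⟨PresentedGroup.toGroup hkill, PresentedGroup.ext fun p => ?_⟩
  rw [MonoidHom.comp_apply, PresentedGroup.toGroup.of, MonoidHom.id_apply, Cover.of_eq_scGen]
  exact hT p.1 p.1.2 p.2

theorem perfectData_of_mem (hD : D ∈ [chevG2, chevB2, chevD4, chevF4, chevE6, chevE7, chevE8])
    (h : ∃ a : F, a ≠ 0 ∧ a ≠ 1) : Sys.PerfectData D F := by
  simp only [List.mem_cons, List.not_mem_nil, or_false] at hD
  rcases hD with rfl | rfl | rfl | rfl | rfl | rfl | rfl
  exacts [perfectData_G2 F h, perfectData_B2 F h, perfectData_D4 F, perfectData_F4 F,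
    perfectData_E6 F, perfectData_E7 F, perfectData_E8 F]

/-- Over a field with more than four elements every central extension splits. -/
theorem splits_of_mem (hD : D ∈ [chevG2, chevB2, chevD4, chevF4, chevE6, chevE7, chevE8])
    (s : Finset F) (hs : 4 < s.card) : Splits.{u, v} D F := by
  have hS := rules_of_mem F hD
  have hbig : 2 < Nat.card F ∨ Infinite F := by
    rcases finite_or_infinite F with hf | hi
    · haveI := Fintype.ofFinite F
      have := s.card_le_univ
      exact Or.inl (by rw [Nat.card_eq_fintype_card]; omega)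
    · exact Or.inr hi
  simp only [List.mem_cons, List.not_mem_nil, or_false] at hD
  rcases hD with rfl | rfl | rfl | rfl | rfl | rfl | rfl
  · exact splits_of_sys hS fun E _ π hπ hc => exists_sys_G2 _ hc hπ s hs
  · exact splits_of_sys hS fun E _ π hπ hc => exists_sys_B2 _ hc hπ hbig
  · exact splits_of_sys hS fun E _ π hπ hc => exists_sys_D4 _ hc hπ hbig
  · exact splits_of_sys hS fun E _ π hπ hc => exists_sys_F4 _ hc hπ hbig
  · exact fun E _ π hπ hc => Laced.exists_section hS Laced.lacedOK_E6 hπ hc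
  · exact fun E _ π hπ hc => Laced.exists_section hS Laced.lacedOK_E7 hπ hc
  · exact fun E _ π hπ hc => Laced.exists_section hS Laced.lacedOK_E8 hπ hc

/-- The group presented by (R1), (R2) over a finite field has trivial multiplier. -/
theorem multiplier_cover [Finite F] (hS : Rules D F) (h : Splits.{u, u} D F) :
    HasCyclicSchurMultiplier (D.SteinbergCover F) 1 := by
  haveI := Cover.finite_cover hS
  refine hasCyclicSchurMultiplier_one_of fun Δ _ _ τ hτ => ?_
  obtain ⟨σ, hσ⟩ := h Δ τ hτ.1 (fun z hz g => Subgroup.mem_center_iff.1 (hτ.2.1 hz) g)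
  have hsur : Function.Surjective σ :=
    surjective_of_comp_surjective hτ σ (fun g => ⟨g, DFunLike.congr_fun hσ g⟩)
  rw [Subgroup.eq_bot_iff_forall]
  intro z hz
  obtain ⟨c, rfl⟩ := hsur z
  rw [MonoidHom.mem_ker, ← MonoidHom.comp_apply, hσ, MonoidHom.id_apply] at hz
  rw [hz, map_one]

theorem multiplier_steinbergGroup [Finite F] (hS : Rules D F) (h : Splits.{u, u} D F) :
    HasCyclicSchurMultiplier (D.SteinbergGroup F) 1 := by
  obtain ⟨e, -⟩ := Cover.exists_equiv_steinberg hS
  exact hasSchurMultiplier_congr e (multiplier_cover hS h)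

/-- A Chevalley group whose universal group has trivial centre has trivial multiplier. -/
theorem multiplier_group_of_bot [Finite F] (hS : Rules D F) (hP : Sys.PerfectData D F)
    (h : Splits.{u, u} D F) (hbot : Subgroup.center (D.SteinbergGroup F) = ⊥) :
    HasCyclicSchurMultiplier ↥(D.group F) 1 := by
  haveI := Cover.finite_steinbergGroup hS
  obtain ⟨θ, hsur, hker, -⟩ := thm_S1077 hS
  have hst : IsStemExtension θ :=
    ⟨hsur, hker.le, by rw [Laced.perfect_steinbergGroup hS hP]; exact le_top⟩
  have hinj : Function.Injective θ := (MonoidHom.ker_eq_bot_iff θ).1 (hker.trans hbot)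
  exact hasSchurMultiplier_congr (MulEquiv.ofBijective θ ⟨hinj, hsur⟩)
    (multiplier_steinbergGroup hS h)

/-- Homomorphisms into the base of a central extension lift uniquely. -/
theorem existsUnique_lift {G₁ : Type w} {E₁ : Type v} [Group G₁] [Group E₁]
    (hS : Rules D F) (hP : Sys.PerfectData D F) (h : Splits.{u, max u v} D F)
    (π : E₁ →* G₁) (hπ : Function.Surjective π) (hc : π.ker ≤ Subgroup.center E₁)
    (σ : D.SteinbergCover F →* G₁) : ∃! τ : D.SteinbergCover F →* E₁, π.comp τ = σ := by
  have hc' : IsCentralMap π := fun z hz g => Subgroup.mem_center_iff.1 (hc hz) g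
  let P : Subgroup (D.SteinbergCover F × E₁) :=
    MonoidHom.eqLocus (σ.comp (MonoidHom.fst _ _)) (π.comp (MonoidHom.snd _ _))
  let p : P →* D.SteinbergCover F := (MonoidHom.fst _ _).comp P.subtype
  have hpc : IsCentralMap p := by
    rintro ⟨⟨d, e⟩, hz⟩ h1 ⟨⟨d', e'⟩, -⟩
    change d = 1 at h1
    subst h1
    have he : π e = 1 := by
      have hz' : σ 1 = π e := hz
      rw [map_one] at hz'
      exact hz'.symm
    refine Subtype.ext (Prod.ext ?_ (hc' e he e'))
    show d' * 1 = 1 * d'
    rw [mul_one, one_mul]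
  have hps : Function.Surjective p := fun d => by
    obtain ⟨e, he⟩ := hπ (σ d)
    exact ⟨⟨(d, e), he.symm⟩, rfl⟩
  obtain ⟨τ, hτ⟩ := h P p hps hpc
  refine ⟨(MonoidHom.snd _ _).comp (P.subtype.comp τ), ?_, fun τ' hτ' => ?_⟩
  · refine MonoidHom.ext fun d => ?_
    have h1 : (τ d).1.1 = d := DFunLike.congr_fun hτ d
    have h2 : σ (τ d).1.1 = π (τ d).1.2 := (τ d).2
    show π (τ d).1.2 = σ d
    rw [← h2, h1]
  · refine MonoidHom.ext fun d => ?_
    set τ₀ := (MonoidHom.snd (D.SteinbergCover F) E₁).comp (P.subtype.comp τ)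
    have hπ₀ : ∀ g, π (τ' g) = π (τ₀ g) := fun g => by
      have h1 : (τ g).1.1 = g := DFunLike.congr_fun hτ g
      have h2 : σ (τ g).1.1 = π (τ g).1.2 := (τ g).2
      rw [h1] at h2
      exact (DFunLike.congr_fun hτ' g).trans h2
    have hle : commutator (D.SteinbergCover F) ≤ MonoidHom.eqLocus τ' τ₀ := by
      rw [commutator_def, Subgroup.commutator_le]
      intro a _ b _
      show τ' ⁅a, b⁆ = τ₀ ⁅a, b⁆
      rw [map_commutatorElement, map_commutatorElement]
      exact lift_comm_eq hc' (hπ₀ a) (hπ₀ b)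
    exact hle (by rw [Cover.perfect hS hP]; trivial)

end Cfsg.Agent.Chev.UCE
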