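import Cfsg.Agent.ChevGrp.Bridge
import Cfsg.Agent.CentralExt.SimplyLaced

/-!
# Lifts of commuting root elements in central extensions

For a central extension of a group with root elements, lifts of commuting root elements commute as
soon as a torus element separates the two roots, or one of them is a term of a commutator of
elements commuting with the other.
-/

set_option autoImplicit false

namespace Cfsg.Agent.Chev.UCE

open Cfsg.Lie Cfsg.Agent.ChevGrp
open Cfsg.Agent.CentralExt.Laced (IsCentralMap lift_comm_eq lift_commute commute_of_decomp)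
open scoped commutatorElement

variable {D : ChevalleyDatum} {F : Type*} [Field F] {len : ℕ → ℕ}

/-- The value of a cocharacter, given by its coordinates, on a root. -/
def dot (D : ChevalleyDatum) (l : List ℤ) (r : ℕ) : ℤ :=
  ((List.range D.rank).map fun i => l.getD i 0 * D.cartan i r).sum

/-- The linear functional which is six times `dot` on the root vectors. -/
def dotHom (D : ChevalleyDatum) (len : ℕ → ℕ) (l : List ℤ) : (Fin D.rank → ℤ) →+ ℤ where
  toFun v := ((List.range D.rank).map fun i => l.getD i 0 *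
    ∑ k : Fin D.rank, v k * D.cartan i (D.simple k) * ((6 / len (D.simple k) : ℕ) : ℤ)).sum
  map_zero' := by simp
  map_add' v w := by
    rw [← List.sum_map_add]
    congr 1
    refine List.map_congr_left fun i _ => ?_
    simp only [Pi.add_apply, add_mul, Finset.sum_add_distrib, mul_add]

theorem dotHom_vec (hR : RootTable D len) (l : List ℤ) {r : ℕ} (hr : r < D.nroots) :
    dotHom D len l (vec D len r) = 6 * dot D l r := by
  show ((List.range D.rank).map _).sum = _
  rw [dot, ← List.sum_map_mul_left]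
  congr 1
  refine List.map_congr_left fun i hi => ?_
  rw [← hR.cartan_vec i (List.mem_range.1 hi) r hr]
  ring

section Torus

variable {G : Type*} [Group G] (S : Sys D F G)

/-- The torus element of a cocharacter at a field element. -/
def tor (l : List ℤ) (a : F) : G :=
  ((List.finRange D.rank).map fun i : Fin D.rank => S.hEl (D.simple i) (a ^ l.getD i 0)).prod

theorem tor_mem (l : List ℤ) {a : F} (ha : a ≠ 0) : tor S l a ∈ S.Hbar := by
  refine Subgroup.list_prod_mem _ fun g hg => ?_
  obtain ⟨i, -, rfl⟩ := List.mem_map.1 hg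
  exact S.hEl_simple_mem i (zpow_ne_zero _ ha)

theorem tor_scale (hS : Rules D F) (hR : RootTable D len) (l : List ℤ) {a : F} (ha : a ≠ 0)
    {s : ℕ} (hs : s < D.nroots) (t : F) :
    tor S l a * S.x s t * (tor S l a)⁻¹ = S.x s (a ^ dot D l s * t) := by
  have key : ∀ L : List (Fin D.rank), ∀ t : F,
      (L.map fun i : Fin D.rank => S.hEl (D.simple i) (a ^ l.getD i 0)).prod * S.x s t *
        ((L.map fun i : Fin D.rank => S.hEl (D.simple i) (a ^ l.getD i 0)).prod)⁻¹ =
      S.x s (a ^ (L.map fun i : Fin D.rank => l.getD i 0 * D.cartan i s).sum * t) := by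
    intro L
    induction L with
    | nil => intro t; simp
    | cons i L ih =>
      intro t
      simp only [List.map_cons, List.prod_cons, List.sum_cons]
      calc S.hEl (D.simple i) (a ^ l.getD i 0) * _ * S.x s t * (S.hEl (D.simple i) (a ^ l.getD i 0) * _)⁻¹
          = S.hEl (D.simple i) (a ^ l.getD i 0) *
              ((L.map fun i : Fin D.rank => S.hEl (D.simple i) (a ^ l.getD i 0)).prod * S.x s t *
                ((L.map fun i : Fin D.rank => S.hEl (D.simple i) (a ^ l.getD i 0)).prod)⁻¹) *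
              (S.hEl (D.simple i) (a ^ l.getD i 0))⁻¹ := by group
        _ = _ := by
          rw [ih, S.conjP_hI hS hR i (zpow_ne_zero _ ha) s hs, ← zpow_mul, zpow_add₀ ha, mul_assoc]
  rw [tor, key]
  congr 3
  simp [dot, ← List.map_coe_finRange_eq_range, List.map_map, Function.comp_def]

end Torus

section Kill

variable {E G : Type*} [Group E] [Group G] (S : Sys D F G) (π : E →* G)

/-- The root elements commute in the group. -/
def GComm (r s : ℕ) : Prop := ∀ t u : F, Commute (S.x r t) (S.x s u)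

/-- Lifts of the root elements commute. -/
def Kill (r s : ℕ) : Prop :=
  ∀ (t u : F) (x y : E), π x = S.x r t → π y = S.x s u → Commute x y

variable {S π}

theorem GComm.symm {r s : ℕ} (h : GComm S r s) : GComm S s r := fun t u => (h u t).symm

theorem Kill.symm {r s : ℕ} (h : Kill S π r s) : Kill S π s r :=
  fun t u x y hx hy => (h u t y x hy hx).symm

theorem gcomm_of_terms (hR : RootTable D len) {r s : ℕ} (hr : r < D.nroots) (hs : s < D.nroots)
    (hn : s ≠ D.neg r) (h : s = r ∨ ∀ c ∈ D.commTerms r s, ((c.2.1 : ℤ) : F) = 0) :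
    GComm S r s := by
  intro t u
  rcases eq_or_ne s r with rfl | hne
  · rw [commute_iff_eq, S.x_add s hs, S.x_add s hs, add_comm]
  · have h0 := h.resolve_left hne
    have e := S.comm r hr s hs hne hn t u
    have hw : ((D.commWord F r s t u).map fun p => S.x p.1 p.2).prod = 1 := by
      refine List.prod_eq_one fun g hg => ?_
      simp only [ChevalleyDatum.commWord, List.map_map, List.mem_map, Function.comp_apply] at hg
      obtain ⟨c, hc, rfl⟩ := hg
      rw [h0 c hc, zero_mul, zero_mul, S.x_zero (hR.commTerms_vec r hr s hs hne hn c hc).1]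
    rw [hw, mul_one] at e
    exact e.symm

variable (hc : IsCentralMap π) (hπ : Function.Surjective π)
include hc hπ

/-- A torus element fixing one root and moving the other. -/
theorem kill_of_scale {r s : ℕ} (hs : s < D.nroots) (hG : GComm S r s) (k : G) {d : F}
    (hd : d ≠ 1) (hkr : ∀ t, k * S.x r t * k⁻¹ = S.x r t)
    (hks : ∀ u, k * S.x s u * k⁻¹ = S.x s (d * u)) : Kill S π r s := by
  intro t u x y hx hy
  obtain ⟨k', hk'⟩ := hπ k
  obtain ⟨y', hy'⟩ := hπ (S.x s ((d - 1)⁻¹ * u))
  have hd' : d - 1 ≠ 0 := sub_ne_zero.2 hd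
  refine commute_of_decomp hc (a := k') (b := y') ?_ ?_ ?_
  · rw [hx, hk']; exact (mul_inv_eq_iff_eq_mul.1 (hkr t)).symm
  · rw [hx, hy']; exact hG _ _
  · rw [hy, hk', hy', commutatorElement_def, hks, S.x_inv hs, S.x_add s hs]
    congr 1
    field_simp
    ring

/-- A root that is a term of a commutator of root elements commuting with another root. -/
theorem kill_of_decomp (hR : RootTable D len) {r a b : ℕ} (ha : a < D.nroots) (hb : b < D.nroots)
    (h1 : b ≠ a) (h2 : b ≠ D.neg a) (hra : GComm S r a) (hrb : GComm S r b) {s : ℕ} {C : ℤ}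
    {i j : ℕ} (hij : i = 1 ∨ j = 1) (hmem : (s, C, i, j) ∈ D.commTerms a b) (hC : (C : F) ≠ 0)
    (hoth : ∀ c ∈ (D.commTerms a b).erase (s, C, i, j), Kill S π r c.1) : Kill S π r s := by
  intro t u x y hx hy
  obtain ⟨t₁, u₁, htu⟩ : ∃ t₁ u₁ : F, (C : F) * (-t₁) ^ i * u₁ ^ j = u := by
    rcases hij with rfl | rfl
    · exact ⟨-((C : F)⁻¹ * u), 1, by rw [pow_one, one_pow, mul_one, neg_neg, mul_inv_cancel_left₀ hC]⟩
    · exact ⟨-1, (C : F)⁻¹ * u, by rw [pow_one, neg_neg, one_pow, mul_one, mul_inv_cancel_left₀ hC]⟩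
  obtain ⟨A, hA⟩ := hπ (S.x a t₁)
  obtain ⟨B, hB⟩ := hπ (S.x b u₁)
  -- the lift of the commutator commutes with `x`
  obtain ⟨A', hA'⟩ := hπ (S.x a t₁)⁻¹
  obtain ⟨B', hB'⟩ := hπ (S.x b u₁)⁻¹
  have hW : Commute x ⁅A', B'⁆⁻¹ := by
    refine (commute_of_decomp hc (a := A') (b := B') ?_ ?_ (map_commutatorElement π A' B')).inv_right
    · rw [hx, hA']; exact (hra t t₁).inv_right
    · rw [hx, hB']; exact (hrb t u₁).inv_right
  have hcm := S.comm a ha b hb h1 h2 t₁ u₁
  have hval : π ⁅A', B'⁆⁻¹ = ((D.commWord F a b t₁ u₁).map fun p => S.x p.1 p.2).prod := by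
    rw [map_inv, map_commutatorElement, hA', hB', commutatorElement_inv, commutatorElement_def,
      inv_inv, inv_inv]
    calc (S.x b u₁)⁻¹ * (S.x a t₁)⁻¹ * S.x b u₁ * S.x a t₁
        = (S.x b u₁)⁻¹ * (S.x a t₁)⁻¹ * (S.x b u₁ * S.x a t₁) := by group
      _ = _ := by rw [hcm]; group
  obtain ⟨L₁, L₂, hL⟩ := List.append_of_mem hmem
  have hL' : ∀ (M : List (ℕ × ℤ × ℕ × ℕ)), (∀ c ∈ M, c ∈ D.commTerms a b ∧ Kill S π r c.1) →
      ∃ z, π z = ((M.map fun c => (c.1, (c.2.1 : F) * (-t₁) ^ c.2.2.1 * u₁ ^ c.2.2.2)).map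
        fun p => S.x p.1 p.2).prod ∧ Commute x z := by
    intro M
    induction M with
    | nil => exact fun _ => ⟨1, by simp, Commute.one_right x⟩
    | cons c M ih =>
      intro hM
      obtain ⟨z, hz, hxz⟩ := ih fun c' hc' => hM c' (List.mem_cons_of_mem _ hc')
      obtain ⟨w, hw⟩ := hπ (S.x c.1 ((c.2.1 : F) * (-t₁) ^ c.2.2.1 * u₁ ^ c.2.2.2))
      exact ⟨w * z, by simp [hw, hz], ((hM c (by simp)).2 _ _ x w hx hw).mul_right hxz⟩
  have hk : ∀ c ∈ L₁ ++ L₂, c ∈ D.commTerms a b ∧ Kill S π r c.1 := by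
    intro c hc'
    have hp : ((s, C, i, j) :: (D.commTerms a b).erase (s, C, i, j)).Perm
        ((s, C, i, j) :: (L₁ ++ L₂)) :=
      (List.perm_cons_erase hmem).symm.trans (hL ▸ List.perm_middle)
    have hce := (List.Perm.cons_inv hp).mem_iff.2 hc'
    exact ⟨List.mem_of_mem_erase hce, hoth c hce⟩
  obtain ⟨z₁, hz₁, hx₁⟩ := hL' L₁ fun c h => hk c (List.mem_append_left _ h)
  obtain ⟨z₂, hz₂, hx₂⟩ := hL' L₂ fun c h => hk c (List.mem_append_right _ h)
  refine lift_commute hc (x := x) (y := z₁⁻¹ * ⁅A', B'⁆⁻¹ * z₂⁻¹) rfl ?_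
    (((hx₁.inv_right).mul_right hW).mul_right hx₂.inv_right)
  rw [hy, map_mul, map_mul, hval, map_inv, map_inv, hz₁, hz₂]
  simp only [ChevalleyDatum.commWord, hL, List.map_append, List.map_cons, List.prod_append,
    List.prod_cons, htu]
  group

/-- Commuting root elements over the field with three elements. -/
theorem kill_of_card_three {r : ℕ} (hr : r < D.nroots)
    (hF : ∀ v : F, v = 0 ∨ v = 1 ∨ v = -1) : Kill S π r r := by
  intro t u x y hx hy
  obtain ⟨g, hg⟩ := hπ (S.x r 1)
  have hz : ∀ v : F, ∃ w, π w = S.x r v ∧ Commute g w := fun v => by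
    rcases hF v with rfl | rfl | rfl
    · exact ⟨1, by rw [map_one, S.x_zero hr], Commute.one_right g⟩
    · exact ⟨g, hg, Commute.refl g⟩
    · exact ⟨g⁻¹, by rw [map_inv, hg, S.x_inv hr], (Commute.refl g).inv_right⟩
  rcases hF t with rfl | rfl | rfl
  · exact lift_commute hc (x := 1) (y := y) (by rw [hx, map_one, S.x_zero hr]) rfl (Commute.one_left y)
  · obtain ⟨w, hw, hgw⟩ := hz u
    exact lift_commute hc (x := g) (y := w) (hx.trans hg.symm) (hy.trans hw.symm) hgw
  · obtain ⟨w, hw, hgw⟩ := hz u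
    exact lift_commute hc (x := g⁻¹) (y := w) (by rw [hx, map_inv, hg, S.x_inv hr])
      (hy.trans hw.symm) hgw.inv_left

omit hc in
theorem π_surjInv (g : G) : π (Function.surjInv hπ g) = g := Function.surjInv_eq hπ g

/-- The pairing of lifts of two commuting root groups is additive in the first variable. -/
theorem pairing_add {r s : ℕ} (hr : r < D.nroots) (hG : GComm S r s) (t t' u : F) :
    ⁅Function.surjInv hπ (S.x r (t + t')), Function.surjInv hπ (S.x s u)⁆ =
      ⁅Function.surjInv hπ (S.x r t), Function.surjInv hπ (S.x s u)⁆ *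
        ⁅Function.surjInv hπ (S.x r t'), Function.surjInv hπ (S.x s u)⁆ := by
  set a := Function.surjInv hπ (S.x r t)
  set a' := Function.surjInv hπ (S.x r t')
  set b := Function.surjInv hπ (S.x s u)
  have e : ⁅Function.surjInv hπ (S.x r (t + t')), b⁆ = ⁅a * a', b⁆ :=
    lift_comm_eq hc (by rw [map_mul, π_surjInv hπ, π_surjInv hπ, π_surjInv hπ, S.x_add r hr]) rfl
  have h1 : π ⁅a', b⁆ = 1 := by
    rw [map_commutatorElement, π_surjInv hπ, π_surjInv hπ]
    exact commutatorElement_eq_one_iff_mul_comm.2 (hG t' u).eq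
  have e2 : ⁅a * a', b⁆ = a * ⁅a', b⁆ * a⁻¹ * ⁅a, b⁆ := by
    simp only [commutatorElement_def]; group
  have h2 := hc _ h1
  rw [e, e2, h2 a, mul_inv_cancel_right]
  exact (h2 _).symm

/-- The pairing is invariant under elements scaling both root groups. -/
theorem pairing_map {r s r' s' : ℕ} (hG : GComm S r s) (g : G) {c d : F}
    (hgr : ∀ t, g * S.x r t * g⁻¹ = S.x r' (c * t))
    (hgs : ∀ u, g * S.x s u * g⁻¹ = S.x s' (d * u)) (t u : F) :
    ⁅Function.surjInv hπ (S.x r' (c * t)), Function.surjInv hπ (S.x s' (d * u))⁆ =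
      ⁅Function.surjInv hπ (S.x r t), Function.surjInv hπ (S.x s u)⁆ := by
  obtain ⟨k, hk⟩ := hπ g
  set a := Function.surjInv hπ (S.x r t)
  set b := Function.surjInv hπ (S.x s u)
  have h1 : π ⁅a, b⁆ = 1 := by
    rw [map_commutatorElement, π_surjInv hπ, π_surjInv hπ]
    exact commutatorElement_eq_one_iff_mul_comm.2 (hG t u).eq
  have e : k * ⁅a, b⁆ * k⁻¹ = ⁅a, b⁆ := by rw [hc _ h1 k, mul_inv_cancel_right]
  rw [← e, conjugate_commutatorElement]
  exact lift_comm_eq hc (by rw [map_mul, map_mul, map_inv, hk, π_surjInv hπ, π_surjInv hπ, hgr])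
    (by rw [map_mul, map_mul, map_inv, hk, π_surjInv hπ, π_surjInv hπ, hgs])

omit hc in
/-- Commuting of all lifts follows from the pairing. -/
theorem kill_of_pairing (hc' : IsCentralMap π) {r s : ℕ}
    (h : ∀ t u : F, ⁅Function.surjInv hπ (S.x r t), Function.surjInv hπ (S.x s u)⁆ = 1) :
    Kill S π r s := fun t u x y hx hy =>
  lift_commute hc' (by rw [hx, π_surjInv hπ]) (by rw [hy, π_surjInv hπ])
    (commutatorElement_eq_one_iff_mul_comm.1 (h t u))

/-- Over a field with at least five elements: a torus acting by all scalars on a root group. -/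
theorem kill_of_big {r : ℕ} (hr : r < D.nroots) (hG : GComm S r r)
    (hsc : ∀ a : F, a ≠ 0 → ∃ g : G, ∀ t, g * S.x r t * g⁻¹ = S.x r (a * t))
    (hq : ∃ a : F, a ≠ 0 ∧ a + 1 ≠ 0 ∧ a * a + a + 1 ≠ 0) : Kill S π r r := by
  obtain ⟨a, ha, ha1, ha2⟩ := hq
  let B : F → F → E := fun t u =>
    ⁅Function.surjInv hπ (S.x r t), Function.surjInv hπ (S.x r u)⁆
  have hadd : ∀ t t' u, B (t + t') u = B t u * B t' u := fun t t' u =>
    pairing_add hc hπ hr hG t t' u
  have hsym : ∀ t u, B u t = (B t u)⁻¹ := fun t u => (commutatorElement_inv _ _).symm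
  have hadd' : ∀ t u u', B t (u + u') = B t u * B t u' := fun t u u' => by
    rw [hsym _ t, hsym u t, hsym u' t, hadd, mul_inv_rev]
    have h1 : ∀ p q, π (B p q) = 1 := fun p q => by
      show π ⁅_, _⁆ = 1
      rw [map_commutatorElement, π_surjInv hπ, π_surjInv hπ]
      exact commutatorElement_eq_one_iff_mul_comm.2 (hG p q).eq
    exact (hc _ (by rw [map_inv, h1, inv_one]) _).symm
  have hmove : ∀ b : F, b ≠ 0 → ∀ t u, B (b * t) u = B t (b⁻¹ * u) := fun b hb t u => by
    obtain ⟨g, hg⟩ := hsc b hb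
    have e := pairing_map hc hπ hG g hg hg t (b⁻¹ * u)
    rwa [mul_inv_cancel_left₀ hb] at e
  have hzero : ∀ t, B t 0 = 1 := fun t => by
    have h := hadd' t 0 0
    rw [add_zero] at h
    exact mul_eq_left.1 h.symm
  refine kill_of_pairing hπ hc fun t u => ?_
  set v : F := (a + 1)⁻¹ - a⁻¹ - 1 with hv
  have hv0 : v ≠ 0 := by
    intro h0
    have h3 : v * (a * (a + 1)) = -(a * a + a + 1) := by
      rw [hv]; field_simp; ring
    rw [h0, zero_mul] at h3
    exact ha2 (neg_eq_zero.1 h3.symm)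
  have key : ∀ w, B t ((a + 1)⁻¹ * w) = B t (a⁻¹ * w + w) := fun w => by
    rw [← hmove _ ha1, add_mul, one_mul, hadd, hmove _ ha, ← hadd']
  have h : ∀ w, B t (v * w) = 1 := fun w => by
    have e : B t ((a + 1)⁻¹ * w) = B t (v * w) * B t (a⁻¹ * w + w) := by
      rw [← hadd']; congr 1; rw [hv]; ring
    rw [key] at e
    exact mul_eq_right.1 e.symm
  have := h (v⁻¹ * u)
  rwa [mul_inv_cancel_left₀ hv0] at this

/-- Over the field with three elements: an element exchanging two root groups. -/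
theorem kill_of_swap {r s : ℕ} (hr : r < D.nroots) (hs : s < D.nroots) (hG : GComm S r s)
    (hF : ∀ v : F, v = 0 ∨ v = 1 ∨ v = -1) (h3 : (3 : F) = 0) (g : G) {c d : F}
    (hcd : c * d = 1) (hgr : ∀ t, g * S.x r t * g⁻¹ = S.x s (c * t))
    (hgs : ∀ u, g * S.x s u * g⁻¹ = S.x r (d * u)) : Kill S π r s := by
  let B : F → F → E := fun t u =>
    ⁅Function.surjInv hπ (S.x r t), Function.surjInv hπ (S.x s u)⁆
  let B' : F → F → E := fun u t =>
    ⁅Function.surjInv hπ (S.x s u), Function.surjInv hπ (S.x r t)⁆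
  have hadd : ∀ t t' u, B (t + t') u = B t u * B t' u := fun t t' u =>
    pairing_add hc hπ hr hG t t' u
  have hadd' : ∀ u u' t, B' (u + u') t = B' u t * B' u' t := fun u u' t =>
    pairing_add hc hπ hs hG.symm u u' t
  have hinv : ∀ t u, B' u t = (B t u)⁻¹ := fun t u => (commutatorElement_inv _ _).symm
  have hneg : ∀ t u, B (-t) u = (B t u)⁻¹ := fun t u => by
    have h := hadd t (-t) u
    rw [add_neg_cancel] at h
    have h0 := hadd 0 0 u
    rw [add_zero] at h0
    rw [mul_eq_left.1 h0.symm] at h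
    exact eq_inv_of_mul_eq_one_right h.symm
  have hneg' : ∀ t u, B' (-u) t = (B' u t)⁻¹ := fun t u => by
    have h := hadd' u (-u) t
    rw [add_neg_cancel] at h
    have h0 := hadd' 0 0 t
    rw [add_zero] at h0
    rw [mul_eq_left.1 h0.symm] at h
    exact eq_inv_of_mul_eq_one_right h.symm
  have hmap : B' c d = B 1 1 := by
    have := pairing_map hc hπ hG g hgr hgs 1 1
    rwa [mul_one, mul_one] at this
  -- the value at `(1, 1)` is its own inverse and has order dividing three
  have hd' : (c = 1 ∧ d = 1) ∨ (c = -1 ∧ d = -1) := by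
    rcases hF c with rfl | rfl | rfl
    · simp at hcd
    · rw [one_mul] at hcd; exact Or.inl ⟨rfl, hcd⟩
    · exact Or.inr ⟨rfl, by linear_combination -hcd⟩
  have h2 : B 1 1 * B 1 1 = 1 := by
    rcases hd' with ⟨rfl, rfl⟩ | ⟨rfl, rfl⟩
    · rw [hinv] at hmap
      nth_rw 1 [← hmap]
      rw [inv_mul_cancel]
    · rw [hneg', hinv, inv_inv, hneg] at hmap
      nth_rw 1 [← hmap]
      rw [inv_mul_cancel]
  have h31 : B 1 1 * B 1 1 * B 1 1 = 1 := by
    have h0 := hadd 0 0 1
    rw [add_zero] at h0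
    rw [← hadd, ← hadd, show (1 : F) + 1 + 1 = 0 by linear_combination h3]
    exact mul_eq_left.1 h0.symm
  rw [h2, one_mul] at h31
  refine kill_of_pairing hπ hc fun t u => ?_
  have hz : B 0 u = 1 := by
    have h0 := hadd 0 0 u
    rw [add_zero] at h0
    exact mul_eq_left.1 h0.symm
  have hz' : B' 0 1 = 1 := by
    have h0 := hadd' 0 0 1
    rw [add_zero] at h0
    exact mul_eq_left.1 h0.symm
  have hu : B 1 u = 1 := by
    rw [← inv_inv (B 1 u), ← hinv]
    rcases hF u with rfl | rfl | rfl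
    · rw [hz', inv_one]
    · rw [hinv, h31, inv_one, inv_one]
    · rw [hneg', hinv, h31, inv_one, inv_one, inv_one]
  show B t u = 1
  rcases hF t with rfl | rfl | rfl
  · exact hz
  · exact hu
  · rw [hneg, hu, inv_one]

end Kill

end Cfsg.Agent.Chev.UCE
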