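import Cfsg.Agent.Chev.UCE.Rel
import Cfsg.Agent.Chev.Main

/-!
# A certificate for lifting the relations to central extensions

The certificate says how the lifts over each root and each pair of roots are controlled: by a torus
element, by a decomposition, by an exchange, or as the bracket defining a family of preimages.
-/

set_option autoImplicit false

namespace Cfsg.Agent.Chev.UCE

open Cfsg.Lie Cfsg.Agent.ChevGrp
open Cfsg.Agent.CentralExt.Laced (IsCentralMap)
open scoped commutatorElement

/-- The field hypotheses a certificate may use. -/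
structure Cfg where
  /-- exponents `m` with some `a ^ m ≠ 1` -/
  ms : List ℕ
  /-- integers that vanish -/
  z : ℤ → Bool
  /-- integers that do not vanish -/
  nz : ℤ → Bool
  /-- three elements -/
  c3 : Bool
  /-- at least five elements -/
  big : Bool

/-- The field satisfies a configuration. -/
structure Fits (F : Type*) [Field F] (K : Cfg) : Prop where
  pow : ∀ m ∈ K.ms, ∃ a : F, a ≠ 0 ∧ a ^ m ≠ 1
  zero : ∀ C : ℤ, K.z C = true → (C : F) = 0
  nonzero : ∀ C : ℤ, K.nz C = true → (C : F) ≠ 0
  three : K.c3 = true → (∀ v : F, v = 0 ∨ v = 1 ∨ v = -1) ∧ (3 : F) = 0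
  five : K.big = true → ∃ a : F, a ≠ 0 ∧ a + 1 ≠ 0 ∧ a * a + a + 1 ≠ 0

/-- The reason why the lifts over a pair of roots commute. -/
inductive KW where
  | swap (w : List ℕ)
  | dec (a b : ℕ)
  | decR (a b : ℕ)

/-- The reason why the lifts over one root commute: a cocharacter, or a decomposition. -/
inductive SW where
  | cheap (l : ℕ)
  | dec (a b : ℕ)

/-- The construction of the preimages over one root. -/
inductive FW where
  | tor (l : ℕ)
  | br (a b : ℕ)

/-- The witnesses. -/
structure Wit where
  /-- a cocharacter positive on each pair -/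
  posW : List (List ℕ)
  /-- a cocharacter vanishing on one root and not on the other: `0` none, `2k+1` first, `2k+2` second -/
  pairW : List (List ℕ)
  /-- the pairs without cocharacter -/
  killW : List (ℕ × ℕ × KW)
  /-- each root -/
  selfW : List SW
  /-- each root -/
  famW : List FW

variable (D : ChevalleyDatum) (K : Cfg) (W : Wit)

/-- The cocharacter with a given code. -/
def lam (k : ℕ) : List ℤ := (List.range D.rank).map fun i => ((k / 13 ^ i % 13 : ℕ) : ℤ) - 6

/-- An entry of a table. -/
def entry (T : List (List ℕ)) (r s : ℕ) : ℕ := (T.getD r []).getD s 0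

/-- The cocharacter moves the second root and fixes the first. -/
def torOK (k r s : ℕ) : Bool :=
  decide (dot D (lam D k) r = 0) && K.ms.contains (dot D (lam D k) s).natAbs

/-- One of two roots is moved by a cocharacter fixing the other. -/
def pairTor (r s : ℕ) : Bool :=
  let e := entry W.pairW r s
  decide (e ≠ 0) && if e % 2 = 1 then torOK D K (e / 2) r s else torOK D K (e / 2 - 1) s r

/-- The root elements commute. -/
def gc (r s : ℕ) : Bool :=
  decide (s = r) || (decide (s ≠ D.neg r) && (D.commTerms r s).all fun c => K.z c.2.1)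

/-- The root is moved by all scalars, or there are three of them. -/
def cheap (r : ℕ) : Bool :=
  K.c3 || match W.selfW.getD r (.dec 0 0) with
    | .cheap l => K.big && decide (dot D (lam D l) r = 1)
    | .dec _ _ => false

/-- Lifts commute by a torus element. -/
def k0 (r s : ℕ) : Bool :=
  decide (s < D.nroots) &&
    ((decide (s = r) && cheap D K W r) || (decide (s ≠ r) && gc D K r s && pairTor D K W r s))

/-- Lifts commute by a decomposition of the second root. -/
def decOK (r s a b : ℕ) : Bool :=
  decide (a < D.nroots) && decide (b < D.nroots) && decide (b ≠ a) && decide (b ≠ D.neg a) &&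
    gc D K r a && gc D K r b &&
    match (D.commTerms a b).find? fun c => c.1 == s with
    | some c => K.nz c.2.1 && (decide (c.2.2.1 = 1) || decide (c.2.2.2 = 1)) &&
        ((D.commTerms a b).erase c).all fun c' => k0 D K W r c'.1
    | none => false

/-- Lifts over one root commute. -/
def selfOK (r : ℕ) : Bool :=
  cheap D K W r || match W.selfW.getD r (.cheap 0) with
    | .dec a b => decOK D K W r r a b
    | .cheap _ => false

/-- The word of a list of letters. -/
def letters (w : List ℕ) : List (Fin D.rank) :=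
  w.filterMap fun i => if h : i < D.rank then some ⟨i, h⟩ else none

/-- The sign with which a word acts on a root element. -/
def cf (C : Cert) : List (Fin D.rank) → ℕ → ℤ
  | [], _ => 1
  | i :: w, s => C.eta i (act D w s) * cf C w s

/-- Lifts over two roots without cocharacter commute. -/
def kpairOK (C : Cert) (r s : ℕ) : Bool :=
  match W.killW.find? fun e => e.1 == r && e.2.1 == s with
  | some (_, _, .swap w) => K.c3 && gc D K r s && decide (act D (letters D w) r = s) &&
      decide (act D (letters D w) s = r) &&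
      decide (cf D C (letters D w) r * cf D C (letters D w) s = 1)
  | some (_, _, .dec a b) => decOK D K W r s a b
  | some (_, _, .decR a b) => decOK D K W s r a b
  | none => false

/-- Lifts over two roots commute. -/
def killOK (C : Cert) (r s : ℕ) : Bool := k0 D K W r s || kpairOK D K W C r s

/-- The preimages over one root are constructed. -/
def famOK (C : Cert) (r : ℕ) : Bool :=
  match W.famW.getD r (.br 0 0) with
  | .tor l => K.ms.contains (dot D (lam D l) r).natAbs
  | .br a b => K.c3 && decide (a < D.nroots) && decide (b < D.nroots) && decide (b ≠ a) &&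
      decide (b ≠ D.neg a) && killOK D K W C a r && killOK D K W C b r &&
      match D.commTerms a b with
      | [(k, c, 1, 1)] => decide (k = r) && K.nz c
      | _ => false

/-- A pair defining the preimages over a root. -/
def isBr (a b : ℕ) : Bool :=
  match D.commTerms a b with
  | [(k, _, 1, 1)] => match W.famW.getD k (.tor 0) with
    | .br a' b' => decide (a' = a) && decide (b' = b)
    | .tor _ => false
  | _ => false

/-- The relation over a pair of roots is controlled. -/
def pairOK (C : Cert) (r s : ℕ) : Bool :=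
  decide (0 < dot D (lam D (entry W.posW r s)) r) && decide (0 < dot D (lam D (entry W.posW r s)) s) &&
    (pairTor D K W r s || isBr D W r s || isBr D W s r ||
      ((D.commTerms r s).all (fun c => K.z c.2.1) && kpairOK D K W C r s))

/-- The certificate. -/
def certOK (C : Cert) : Bool :=
  (List.range D.nroots).all fun r => selfOK D K W r && famOK D K W C r &&
    (List.range D.nroots).all fun s =>
      decide (s = r) || decide (s = D.neg r) || pairOK D K W C r s

variable {D K W}
variable {F : Type*} [Field F] {len : ℕ → ℕ} {E G : Type*} [Group E] [Group G]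
  {S : Sys D F G} {π : E →* G}

theorem exists_tor (hS : Rules D F) (hR : RootTable D len) (hF : Fits F K) (l : List ℤ) {s : ℕ}
    (hs : s < D.nroots) (h : K.ms.contains (dot D l s).natAbs = true) :
    ∃ a : F, a ≠ 0 ∧ a ^ dot D l s ≠ 1 ∧ tor S l a ∈ S.Hbar ∧
      ∀ t, tor S l a * S.x s t * (tor S l a)⁻¹ = S.x s (a ^ dot D l s * t) := by
  obtain ⟨a, ha, ham⟩ := hF.pow _ (List.contains_iff_mem.1 h)
  refine ⟨a, ha, fun e => ham ?_, tor_mem S l ha, tor_scale S hS hR l ha hs⟩
  rcases Int.natAbs_eq (dot D l s) with h' | h'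
  · rw [h', zpow_natCast] at e
    exact e
  · rw [h', zpow_neg, zpow_natCast, inv_eq_one] at e
    exact e

theorem exists_tor_pair (hS : Rules D F) (hR : RootTable D len) (hF : Fits F K) {k r s : ℕ}
    (hr : r < D.nroots) (hs : s < D.nroots) (h : torOK D K k r s = true) :
    ∃ g ∈ S.Hbar, ∃ d : F, d ≠ 1 ∧ (∀ t, g * S.x r t * g⁻¹ = S.x r t) ∧
      ∀ u, g * S.x s u * g⁻¹ = S.x s (d * u) := by
  simp only [torOK, Bool.and_eq_true, decide_eq_true_eq] at h
  obtain ⟨a, ha, ham, hmem, hsc⟩ := exists_tor (S := S) hS hR hF (lam D k) hs h.2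
  refine ⟨_, hmem, _, ham, fun t => ?_, hsc⟩
  rw [tor_scale S hS hR _ ha hr, h.1, zpow_zero, one_mul]

theorem gcomm_of_gc (hR : RootTable D len) (hF : Fits F K) {r s : ℕ} (hr : r < D.nroots)
    (hs : s < D.nroots) (h : gc D K r s = true) : GComm S r s := by
  simp only [gc, Bool.or_eq_true, Bool.and_eq_true, decide_eq_true_eq, List.all_eq_true] at h
  refine gcomm_of_terms hR hr hs ?_ (h.imp id fun h' c hc => hF.zero _ (h'.2 c hc))
  rcases h with rfl | ⟨h1, -⟩
  · exact (hR.neg_ne hr).symm
  · exact h1

theorem eta_cast {C : Cert} (hV : C.Valid D) (hS : Rules D F) (hR : RootTable D len)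
    (S : Sys D F G) (i : Fin D.rank) {s : ℕ} (hs : s < D.nroots) (t : F) :
    S.nI i * S.x s t * (S.nI i)⁻¹ = S.x (D.reflectRoot i s) ((C.eta i s : F) * t) := by
  have hw : C.w i s = D.reflectRoot i s := hV.w_eq i.2 hs
  refine S.conj_all hS hR i (S.nEl_mem_rankOne i 1) (Or.inr rfl) (fun s => (C.eta i s : F))
    (fun u hu v => ?_) s hs t
  rw [act_singleton]
  refine S.θ_conj_of_mat ?_
  show S.mat (S.nEl (D.simple i) 1) * _ = _ * S.mat (S.nEl (D.simple i) 1)
  rw [S.mat_nEl hR (hR.simple_lt i i.2), S.mat_x hu, S.mat_x (hR.reflect_lt i i.2 u hu),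
    ← hV.w_eq i.2 hu]
  exact hV.n_mul_x i.2 hu v

theorem nW_conj {C : Cert} (hV : C.Valid D) (hS : Rules D F) (hR : RootTable D len)
    (S : Sys D F G) (w : List (Fin D.rank)) {s : ℕ} (hs : s < D.nroots) (t : F) :
    S.nW w * S.x s t * (S.nW w)⁻¹ = S.x (act D w s) ((cf D C w s : F) * t) := by
  induction w generalizing t with
  | nil => simp [Sys.nW, cf, act_nil]
  | cons i w ih =>
    rw [S.nW_cons, act_cons]
    calc S.nI i * S.nW w * S.x s t * (S.nI i * S.nW w)⁻¹
        = S.nI i * (S.nW w * S.x s t * (S.nW w)⁻¹) * (S.nI i)⁻¹ := by group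
      _ = _ := by
        rw [ih, eta_cast hV hS hR S i (hR.act_lt w hs), cf, Int.cast_mul, mul_assoc]

variable (hc : IsCentralMap π) (hπ : Function.Surjective π) (hS : Rules D F)
  (hR : RootTable D len) (hF : Fits F K)
include hc hπ hS hR hF

theorem kill_of_cheap {r : ℕ} (hr : r < D.nroots) (h : cheap D K W r = true) : Kill S π r r := by
  simp only [cheap, Bool.or_eq_true] at h
  rcases h with h | h
  · exact kill_of_card_three hc hπ hr (hF.three h).1
  · split at h
    · rename_i l _
      simp only [Bool.and_eq_true, decide_eq_true_eq] at h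
      refine kill_of_big hc hπ hr (gcomm_of_terms hR hr hr (hR.neg_ne hr).symm (Or.inl rfl))
        (fun a ha => ⟨tor S (lam D l) a, fun t => ?_⟩) (hF.five h.1)
      rw [tor_scale S hS hR _ ha hr, h.2, zpow_one]
    · simp at h

theorem kill_of_pairTor {r s : ℕ} (hr : r < D.nroots) (hs : s < D.nroots) (hG : GComm S r s)
    (h : pairTor D K W r s = true) : Kill S π r s := by
  simp only [pairTor, Bool.and_eq_true] at h
  have h2 := h.2
  split at h2
  · obtain ⟨g, -, d, hd, hgr, hgs⟩ := exists_tor_pair (S := S) hS hR hF hr hs h2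
    exact kill_of_scale hc hπ hs hG g hd hgr hgs
  · obtain ⟨g, -, d, hd, hgr, hgs⟩ := exists_tor_pair (S := S) hS hR hF hs hr h2
    exact (kill_of_scale hc hπ hr hG.symm g hd hgr hgs).symm

theorem kill_of_k0 {r s : ℕ} (hr : r < D.nroots) (h : k0 D K W r s = true) : Kill S π r s := by
  simp only [k0, Bool.and_eq_true, Bool.or_eq_true, decide_eq_true_eq] at h
  obtain ⟨hs, ⟨rfl, h⟩ | ⟨⟨-, hg⟩, h⟩⟩ := h
  · exact kill_of_cheap hc hπ hS hR hF hr h
  · exact kill_of_pairTor hc hπ hS hR hF hr hs (gcomm_of_gc hR hF hr hs hg) h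

theorem kill_of_decOK {r s a b : ℕ} (hr : r < D.nroots) (h : decOK D K W r s a b = true) :
    Kill S π r s := by
  simp only [decOK, Bool.and_eq_true, decide_eq_true_eq] at h
  obtain ⟨⟨⟨⟨⟨⟨ha, hb⟩, h1⟩, h2⟩, hga⟩, hgb⟩, h⟩ := h
  split at h
  · rename_i c hfind
    have hmem := List.mem_of_find?_eq_some hfind
    have hcs : c.1 = s := by simpa using List.find?_some hfind
    simp only [Bool.and_eq_true, Bool.or_eq_true, decide_eq_true_eq, List.all_eq_true] at h
    obtain ⟨⟨hnz, hij⟩, hall⟩ := h
    obtain ⟨k, C, i, j⟩ := c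
    simp only at hcs
    subst hcs
    exact kill_of_decomp hc hπ hR ha hb h1 h2 (gcomm_of_gc hR hF hr ha hga)
      (gcomm_of_gc hR hF hr hb hgb) hij hmem (hF.nonzero _ hnz)
      fun c' hc' => kill_of_k0 hc hπ hS hR hF hr (hall c' hc')
  · simp at h

theorem kill_of_selfOK {r : ℕ} (hr : r < D.nroots) (h : selfOK D K W r = true) :
    Kill S π r r := by
  simp only [selfOK, Bool.or_eq_true] at h
  rcases h with h | h
  · exact kill_of_cheap hc hπ hS hR hF hr h
  · split at h
    · exact kill_of_decOK hc hπ hS hR hF hr h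
    · simp at h

theorem kill_of_kpairOK {C : Cert} (hV : C.Valid D) {r s : ℕ} (hr : r < D.nroots)
    (hs : s < D.nroots) (h : kpairOK D K W C r s = true) : Kill S π r s := by
  simp only [kpairOK] at h
  split at h
  · rename_i w _
    simp only [Bool.and_eq_true, decide_eq_true_eq] at h
    obtain ⟨⟨⟨⟨h3, hg⟩, hw1⟩, hw2⟩, hcf⟩ := h
    refine kill_of_swap hc hπ hr hs (gcomm_of_gc hR hF hr hs hg) (hF.three h3).1 (hF.three h3).2
      (S.nW (letters D w)) (c := (cf D C (letters D w) r : F)) (d := (cf D C (letters D w) s : F))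
      (by rw [← Int.cast_mul, hcf, Int.cast_one]) (fun t => ?_) fun u => ?_
    · rw [nW_conj hV hS hR S _ hr, hw1]
    · rw [nW_conj hV hS hR S _ hs, hw2]
  · exact kill_of_decOK hc hπ hS hR hF hr h
  · exact (kill_of_decOK hc hπ hS hR hF hs h).symm
  · simp at h

theorem kill_of_killOK {C : Cert} (hV : C.Valid D) {r s : ℕ} (hr : r < D.nroots)
    (hs : s < D.nroots) (h : killOK D K W C r s = true) : Kill S π r s := by
  simp only [killOK, Bool.or_eq_true] at h
  exact h.elim (kill_of_k0 hc hπ hS hR hF hr) (kill_of_kpairOK hc hπ hS hR hF hV hr hs)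

/-- The preimages over one root, with the bracket defining them. -/
theorem exists_fam {C : Cert} (hV : C.Valid D) {r : ℕ} (hr : r < D.nroots)
    (hself : selfOK D K W r = true) (h : famOK D K W C r = true) :
    ∃ L : F → E, IsFam S π r L ∧ ∀ (a b : ℕ) (c : ℤ), W.famW.getD r (.br 0 0) = .br a b →
      D.commTerms a b = [(r, c, 1, 1)] → ∀ (t u : F) (x y : E), π x = S.x a t → π y = S.x b u →
        ⁅x, y⁆ = L ((c : F) * t * u) := by
  have hk := kill_of_selfOK (S := S) hc hπ hS hR hF hr hself
  unfold famOK at h
  split at h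
  · rename_i l hl
    obtain ⟨a, ha, ham, hmem, hsc⟩ := exists_tor (S := S) hS hR hF (lam D l) hr h
    obtain ⟨L, hL⟩ := exists_fam_of_torus hc hπ hS hR hr hk hmem ham hsc
    exact ⟨L, hL, fun a b c e => absurd (hl.symm.trans e) (by simp)⟩
  · rename_i a b hl
    simp only [Bool.and_eq_true, decide_eq_true_eq] at h
    obtain ⟨⟨⟨⟨⟨⟨⟨h3, ha⟩, hb⟩, h1⟩, h2⟩, hka⟩, hkb⟩, h⟩ := h
    split at h
    · rename_i k c hterm
      simp only [Bool.and_eq_true, decide_eq_true_eq] at h
      obtain ⟨rfl, hnz⟩ := h
      obtain ⟨L, hL, hbr⟩ := exists_fam_of_bracket hc hπ hS hR (hF.three h3).1 hr ha hb h1 h2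
        hterm (hF.nonzero _ hnz) hk (kill_of_killOK hc hπ hS hR hF hV ha hr hka)
        (kill_of_killOK hc hπ hS hR hF hV hb hr hkb)
      refine ⟨L, hL, fun a' b' c' e hterm' => ?_⟩
      rw [hl] at e
      cases e
      rw [hterm] at hterm'
      cases hterm'
      exact hbr
    · simp at h

omit hc hπ hS hF in
/-- The relation from a defining bracket. -/
theorem rel_of_isBr {L : ℕ → F → E} (hL : ∀ k < D.nroots, IsFam S π k (L k))
    (hbr : ∀ k < D.nroots, ∀ (a b : ℕ) (c : ℤ), W.famW.getD k (.br 0 0) = .br a b →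
      D.commTerms a b = [(k, c, 1, 1)] → ∀ (t u : F) (x y : E), π x = S.x a t → π y = S.x b u →
        ⁅x, y⁆ = L k ((c : F) * t * u))
    (hlen : W.famW.length = D.nroots) {r s : ℕ} (hr : r < D.nroots) (hs : s < D.nroots)
    (h1 : s ≠ r) (h2 : s ≠ D.neg r) (h : isBr D W r s = true) : Rel D L r s := by
  unfold isBr at h
  split at h
  · rename_i k c hterm
    have hk : k < D.nroots :=
      (hR.commTerms_vec r hr s hs h1 h2 (k, c, 1, 1) (by rw [hterm]; simp)).1
    split at h
    · rename_i a b hl
      simp only [Bool.and_eq_true, decide_eq_true_eq] at h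
      obtain ⟨rfl, rfl⟩ := h
      rw [List.getD_eq_getElem _ _ (hlen.symm ▸ hk)] at hl
      intro t u
      have e := hbr k hk _ _ c (by rw [List.getD_eq_getElem _ _ (hlen.symm ▸ hk), hl]) hterm
        (-t) (-u) _ _ ((hL a hr).map (-t)) ((hL b hs).map (-u))
      simp only [word, ChevalleyDatum.commWord, hterm, List.map_cons, List.map_nil, List.prod_cons,
        List.prod_nil, mul_one, pow_one]
      rw [(hL a hr).neg, (hL b hs).neg, show (c : F) * -t * -u = -((c : F) * -t * u) by ring,
        (hL k hk).neg] at e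
      rw [← inv_inv (L k _), ← e]
      simp only [commutatorElement_def]
      group
    · simp at h
  · simp at h

omit hπ in
/-- The relations lift to central extensions. -/
theorem exists_sys_of_cert (hπ : Function.Surjective π) {C : Cert} (hV : C.Valid D)
    (hlen : W.famW.length = D.nroots) (h : certOK D K W C = true) :
    ∃ T : Sys D F E, ∀ r < D.nroots, ∀ t, π (T.x r t) = S.x r t := by
  classical
  simp only [certOK, List.all_eq_true, List.mem_range, Bool.and_eq_true, Bool.or_eq_true,
    decide_eq_true_eq] at h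
  have hex : ∀ r, ∃ L : F → E, r < D.nroots → IsFam S π r L ∧ ∀ (a b : ℕ) (c : ℤ),
      W.famW.getD r (.br 0 0) = .br a b →
      D.commTerms a b = [(r, c, 1, 1)] → ∀ (t u : F) (x y : E), π x = S.x a t → π y = S.x b u →
        ⁅x, y⁆ = L ((c : F) * t * u) := fun r => by
    by_cases hr : r < D.nroots
    · obtain ⟨L, hL⟩ := exists_fam (S := S) hc hπ hS hR hF hV hr (h r hr).1.1 (h r hr).1.2
      exact ⟨L, fun _ => hL⟩
    · exact ⟨fun _ => 1, fun h => absurd h hr⟩
  choose L hL' using hex
  have hL : ∀ r < D.nroots, IsFam S π r (L r) := fun r hr => (hL' r hr).1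
  have hbr := fun k hk => (hL' k hk).2
  have key : ∀ N : ℕ, ∀ r < D.nroots, ∀ s < D.nroots, s ≠ r → s ≠ D.neg r →
      (sector D len r s).ncard = N → Rel D L r s := by
    intro N
    induction N using Nat.strong_induction_on with
    | _ N ih => ?_
    intro r hr s hs h1 h2 hN
    obtain ⟨⟨hpr, hps⟩, hcase⟩ : _ ∧ _ := by
      have := ((h r hr).2 s hs).resolve_left (not_or.2 ⟨h1, h2⟩)
      simpa only [pairOK, Bool.and_eq_true, Bool.or_eq_true, decide_eq_true_eq] using this
    set l := lam D (entry W.posW r s)
    have hφr : 0 < dotHom D len l (vec D len r) := by rw [dotHom_vec hR l hr]; omega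
    have hφs : 0 < dotHom D len l (vec D len s) := by rw [dotHom_vec hR l hs]; omega
    -- injectivity over the sector with one boundary root
    have hinj : ∀ p q : ℕ, p < D.nroots → q < D.nroots → 0 < dotHom D len l (vec D len p) →
        0 < dotHom D len l (vec D len q) → sector D len p q = sector D len r s →
        ∀ g ∈ UA L (insert q (sector D len p q)), π g = 1 → g = 1 := by
      intro p q _ hq hφp hφq he g hg hg1
      set A := ((sector_finite (D := D) (len := len) p q).insert q).toFinset with hA
      have hcl := insert_sector_closed hR (dotHom D len l) hq hφp hφq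
      have hcl' : UClosed D len (dotHom D len l) (↑A) := by rwa [hA, Set.Finite.coe_toFinset]
      refine inj_of_rel hL hR (dotHom D len l) A hcl' (fun a ha b hb hne => ?_) g
        (by rwa [hA, Set.Finite.coe_toFinset]) hg1
      rw [hA, Set.Finite.mem_toFinset] at ha hb
      have hab : b ≠ D.neg a := fun e => by
        have h3 := hcl.pos a ha
        have h4 := hcl.pos b hb
        have := hR.deg_neg (dotHom D len l) (hcl.lt a ha)
        rw [← e] at this
        omega
      refine ih _ ?_ a (hcl.lt a ha) b (hcl.lt b hb) hne hab rfl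
      rw [← hN, ← he]
      exact Set.ncard_lt_ncard (sector_ssubset hR _ hφp hφq ha hb hne) (sector_finite p q)
    have h1' : r ≠ D.neg s := fun e => h2 (by rw [e, hR.neg_neg_root hs])
    have hinj0 : ∀ g ∈ UA L (sector D len r s), π g = 1 → g = 1 := fun g hg hg1 =>
      hinj r s hr hs hφr hφs rfl g
        ((Subgroup.closure_mono (by rintro x ⟨p, hp, hx⟩; exact ⟨p, Or.inr hp, hx⟩) :
          UA L (sector D len r s) ≤ UA L (insert s (sector D len r s))) hg) hg1
    rcases hcase with ((ht | hb) | hb) | ⟨hz, hk⟩
    · simp only [pairTor, Bool.and_eq_true] at ht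
      have h2t := ht.2
      split at h2t
      · obtain ⟨g, hg, d, hd, hgr, hgs⟩ := exists_tor_pair (S := S) hS hR hF hr hs h2t
        exact rel_of_torus hL hc hπ hS hR hr hs h1 h2 (hinj r s hr hs hφr hφs rfl) hg hd hgr hgs
      · obtain ⟨g, hg, d, hd, hgr, hgs⟩ := exists_tor_pair (S := S) hS hR hF hs hr h2t
        exact rel_symm hL hR hr hs h1 h2 hinj0 (rel_of_torus hL hc hπ hS hR hs hr h1.symm h1'
          (hinj s r hs hr hφs hφr (sector_comm s r)) hg hd hgr hgs)
    · exact rel_of_isBr hR hL hbr hlen hr hs h1 h2 hb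
    · exact rel_symm hL hR hr hs h1 h2 hinj0 (rel_of_isBr hR hL hbr hlen hs hr h1.symm h1' hb)
    · exact rel_of_kill hL hR hr hs h1 h2 (kill_of_kpairOK hc hπ hS hR hF hV hr hs hk)
        fun c hc' => hF.zero _ (List.all_eq_true.1 hz c hc')
  exact ⟨{ x := L
           θ := S.θ.comp π
           θ_x := fun r hr t => by rw [MonoidHom.comp_apply, (hL r hr).map, S.θ_x r hr]
           x_add := fun r hr t u => (hL r hr).add t u
           comm := fun r hr s hs h1 h2 t u => key _ r hr s hs h1 h2 rfl t u },
    fun r hr t => (hL r hr).map t⟩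

end Cfsg.Agent.Chev.UCE
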