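import Cfsg.Agent.Chev.UCE.Basic
import Cfsg.Agent.ChevGrp.Simple

/-!
# Preimages of root elements in a central extension

The root group of a root has an additive family of preimages, compatible with the torus, as soon as
its lifts commute and either a torus element moves it or the root is the only term of a commutator.
-/

set_option autoImplicit false

namespace Cfsg.Agent.Chev.UCE

open Cfsg.Lie Cfsg.Agent.ChevGrp
open Cfsg.Agent.CentralExt.Laced (IsCentralMap lift_comm_eq lift_commute x_inj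
  x_commutator_of_single)
open scoped commutatorElement

variable {D : ChevalleyDatum} {F : Type*} [Field F] {len : ℕ → ℕ} {E G : Type*} [Group E] [Group G]
  (S : Sys D F G) (π : E →* G)

/-- An additive family of preimages of a root group, compatible with the torus. -/
structure IsFam (r : ℕ) (L : F → E) : Prop where
  map : ∀ t, π (L t) = S.x r t
  add : ∀ t u, L t * L u = L (t + u)
  equiv : ∀ k : E, π k ∈ S.Hbar → ∀ c : F, (∀ t, π k * S.x r t * (π k)⁻¹ = S.x r (c * t)) →
    ∀ t, k * L t * k⁻¹ = L (c * t)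

variable {S π}

theorem IsFam.zero {r : ℕ} {L : F → E} (h : IsFam S π r L) : L 0 = 1 := by
  have e := h.add 0 0
  rw [add_zero] at e
  exact mul_eq_left.1 e

theorem IsFam.neg {r : ℕ} {L : F → E} (h : IsFam S π r L) (t : F) : L (-t) = (L t)⁻¹ := by
  rw [eq_inv_iff_mul_eq_one, h.add, neg_add_cancel, h.zero]

/-- Scalars by which an element of the torus acts. -/
theorem exists_scalar (hS : Rules D F) (hR : RootTable D len) {h : G} (hh : h ∈ S.Hbar) :
    ∃ a : ℕ → F, (∀ s < D.nroots, a s ≠ 0) ∧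
      (∀ s < D.nroots, ∀ t, h * S.x s t * h⁻¹ = S.x s (a s * t)) ∧
      ∀ s < D.nroots, ∀ t, h⁻¹ * S.x s t * h = S.x s ((a s)⁻¹ * t) := by
  obtain ⟨a, ha, hca⟩ := S.conjP_Hbar hS hR hh
  simp only [act_nil] at hca
  have hne : ∀ s < D.nroots, a s ≠ 0 := fun s hs => right_ne_zero_of_mul_eq_one (ha s hs)
  refine ⟨a, hne, hca, fun s hs t => ?_⟩
  have e := hca s hs ((a s)⁻¹ * t)
  rw [mul_inv_cancel_left₀ (hne s hs)] at e
  rw [← e]
  group

/-- The commutator of two torus elements fixes all root elements. -/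
theorem torus_comm_fix (hS : Rules D F) (hR : RootTable D len) {g k : G} (hg : g ∈ S.Hbar)
    (hk : k ∈ S.Hbar) :
    ∀ p ∈ S.Gbar, Commute (g⁻¹ * k * g * k⁻¹) p := by
  obtain ⟨a, ha, hga, hga'⟩ := exists_scalar hS hR hg
  obtain ⟨b, hb, hkb, hkb'⟩ := exists_scalar hS hR hk
  have key : ∀ s < D.nroots, ∀ t : F,
      g⁻¹ * k * g * k⁻¹ * S.x s t * (g⁻¹ * k * g * k⁻¹)⁻¹ = S.x s t := by
    intro s hs t
    calc g⁻¹ * k * g * k⁻¹ * S.x s t * (g⁻¹ * k * g * k⁻¹)⁻¹
        = g⁻¹ * (k * (g * (k⁻¹ * S.x s t * k) * g⁻¹) * k⁻¹) * g := by group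
      _ = S.x s t := by
        rw [hkb' s hs, hga s hs, hkb s hs, hga' s hs]
        congr 1
        have := ha s hs
        have := hb s hs
        field_simp
  intro p hp
  refine Subgroup.closure_induction ?_ ?_ ?_ ?_ hp
  · rintro _ ⟨s, hs, t, rfl⟩
    exact mul_inv_eq_iff_eq_mul.1 (key s hs t)
  · exact Commute.one_right _
  · exact fun _ _ _ _ h₁ h₂ => h₁.mul_right h₂
  · exact fun _ _ h => h.inv_right

theorem Hbar_le_Gbar (hS : Rules D F) (hR : RootTable D len) : S.Hbar ≤ S.Gbar :=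
  S.Hbar_le_Nbar.trans (S.Nbar_le_Gbar hS hR)

variable (hc : IsCentralMap π)
include hc

/-- An element whose image commutes with those of two others commutes with their commutator. -/
theorem commute_comm {q a b : E} (ha : Commute (π q) (π a)) (hb : Commute (π q) (π b)) :
    Commute q ⁅a, b⁆ := by
  refine mul_inv_eq_iff_eq_mul.1 ?_
  rw [conjugate_commutatorElement]
  exact lift_comm_eq hc (by rw [map_mul, map_mul, map_inv, ha.eq, mul_inv_cancel_right])
    (by rw [map_mul, map_mul, map_inv, hb.eq, mul_inv_cancel_right])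

variable (hπ : Function.Surjective π)
include hπ

/-- A torus element moving a root gives a family of preimages. -/
theorem exists_fam_of_torus (hS : Rules D F) (hR : RootTable D len) {r : ℕ} (hr : r < D.nroots)
    (hk : Kill S π r r) {g : G} (hg : g ∈ S.Hbar) {c : F} (hc1 : c ≠ 1)
    (hgr : ∀ t, g * S.x r t * g⁻¹ = S.x r (c * t)) : ∃ L, IsFam S π r L := by
  obtain ⟨g', hg'⟩ := hπ g
  have hd : c - 1 ≠ 0 := sub_ne_zero.2 hc1
  set L₀ : F → E := fun t => Function.surjInv hπ (S.x r t) with hL₀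
  have hπ₀ : ∀ t, π (L₀ t) = S.x r t := fun t => π_surjInv hπ _
  set L : F → E := fun t => ⁅g', L₀ ((c - 1)⁻¹ * t)⁆ with hL
  have hπL : ∀ t, π (L t) = S.x r t := fun t => by
    show π ⁅g', L₀ _⁆ = _
    rw [map_commutatorElement, hg', hπ₀, commutatorElement_def, hgr, S.x_inv hr, S.x_add r hr]
    congr 1
    field_simp
    ring
  have hadd : ∀ t u, L t * L u = L (t + u) := fun t u => by
    have e : L (t + u) = ⁅g', L₀ ((c - 1)⁻¹ * t) * L₀ ((c - 1)⁻¹ * u)⁆ :=
      lift_comm_eq hc rfl (by rw [map_mul, hπ₀, hπ₀, hπ₀, S.x_add r hr, mul_add])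
    have hcm : Commute (L₀ ((c - 1)⁻¹ * t)) (L u) := hk _ _ _ _ (hπ₀ _) (hπL u)
    rw [e]
    calc L t * L u = ⁅g', L₀ ((c - 1)⁻¹ * t)⁆ *
          (L₀ ((c - 1)⁻¹ * t) * L u * (L₀ ((c - 1)⁻¹ * t))⁻¹) := by
          rw [hcm.eq, mul_inv_cancel_right]
      _ = _ := by simp only [hL, commutatorElement_def]; group
  refine ⟨L, hπL, hadd, fun k hkH d hkr t => ?_⟩
  set q : E := g'⁻¹ * k * g' * k⁻¹ with hq
  have hfix : ∀ p ∈ S.Gbar, Commute (π q) p := by
    intro p hp
    rw [hq, map_mul, map_mul, map_mul, map_inv, map_inv, hg']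
    exact torus_comm_fix hS hR hg hkH p hp
  set b : E := L₀ ((c - 1)⁻¹ * (d * t))
  have hqb : Commute q (L₀ ((c - 1)⁻¹ * (d * t))) := by
    have h1 : Commute q (L (((c - 1)⁻¹ * (d * t)))) :=
      commute_comm hc (hfix _ (hg'.symm ▸ Hbar_le_Gbar hS hR hg))
        (hfix _ (by rw [hπ₀]; exact Subgroup.subset_closure ⟨r, hr, _, rfl⟩))
    exact lift_commute hc (x := q) (y := L ((c - 1)⁻¹ * (d * t))) rfl (by rw [hπ₀, hπL]) h1
  calc k * L t * k⁻¹ = ⁅g' * q, L₀ ((c - 1)⁻¹ * (d * t))⁆ := by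
        simp only [hL, conjugate_commutatorElement]
        refine lift_comm_eq hc ?_ ?_
        · rw [hq]; simp only [map_mul, map_inv]; group
        · rw [map_mul, map_mul, map_inv, hπ₀, hπ₀, hkr]
          congr 1
          ring
    _ = g' * ⁅q, L₀ ((c - 1)⁻¹ * (d * t))⁆ * g'⁻¹ * L (d * t) := by
        simp only [hL, commutatorElement_def]; group
    _ = L (d * t) := by
        rw [commutatorElement_eq_one_iff_mul_comm.2 hqb.eq, mul_one, mul_inv_cancel, one_mul]

/-- Over the field with three elements: a root that is the only term of a commutator. -/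
theorem exists_fam_of_bracket (hS : Rules D F) (hR : RootTable D len)
    (hF : ∀ v : F, v = 0 ∨ v = 1 ∨ v = -1) {r a b : ℕ} (hr : r < D.nroots) (ha : a < D.nroots)
    (hb : b < D.nroots) (h1 : b ≠ a) (h2 : b ≠ D.neg a) {C : ℤ}
    (hterm : D.commTerms a b = [(r, C, 1, 1)]) (hC : (C : F) ≠ 0) (hrr : Kill S π r r)
    (har : Kill S π a r) (hbr : Kill S π b r) :
    ∃ L, IsFam S π r L ∧ ∀ (t u : F) (x y : E), π x = S.x a t → π y = S.x b u →
      ⁅x, y⁆ = L ((C : F) * t * u) := by
  set B : F → F → E := fun t u =>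
    ⁅Function.surjInv hπ (S.x a t), Function.surjInv hπ (S.x b u)⁆ with hB
  have hπB : ∀ t u, π (B t u) = S.x r ((C : F) * t * u) := fun t u => by
    show π ⁅_, _⁆ = _
    rw [map_commutatorElement, π_surjInv hπ, π_surjInv hπ,
      x_commutator_of_single S ha hb hr h1 h2 hterm]
  have hadd : ∀ t t' u, B (t + t') u = B t u * B t' u := fun t t' u => by
    set A := Function.surjInv hπ (S.x a t)
    set A' := Function.surjInv hπ (S.x a t')
    set B₀ := Function.surjInv hπ (S.x b u)
    have e : B (t + t') u = ⁅A * A', B₀⁆ :=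
      lift_comm_eq hc (by rw [map_mul, π_surjInv hπ, π_surjInv hπ, π_surjInv hπ, S.x_add a ha]) rfl
    have hcm : Commute A ⁅A', B₀⁆ := har _ _ _ _ (π_surjInv hπ _) (hπB t' u)
    rw [e]
    calc ⁅A * A', B₀⁆ = A * ⁅A', B₀⁆ * A⁻¹ * ⁅A, B₀⁆ := by
          simp only [commutatorElement_def]; group
      _ = ⁅A, B₀⁆ * ⁅A', B₀⁆ := by
          rw [hcm.eq, mul_inv_cancel_right]
          exact (hrr _ _ _ _ (hπB t' u) (hπB t u)).eq
  have hadd' : ∀ t u u', B t (u + u') = B t u * B t u' := fun t u u' => by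
    set A := Function.surjInv hπ (S.x a t)
    set B₀ := Function.surjInv hπ (S.x b u)
    set B₁ := Function.surjInv hπ (S.x b u')
    have e : B t (u + u') = ⁅A, B₀ * B₁⁆ :=
      lift_comm_eq hc rfl (by rw [map_mul, π_surjInv hπ, π_surjInv hπ, π_surjInv hπ, S.x_add b hb])
    have hcm : Commute B₀ ⁅A, B₁⁆ := hbr _ _ _ _ (π_surjInv hπ _) (hπB t u')
    rw [e]
    calc ⁅A, B₀ * B₁⁆ = ⁅A, B₀⁆ * (B₀ * ⁅A, B₁⁆ * B₀⁻¹) := by
          simp only [commutatorElement_def]; group
      _ = _ := by rw [hcm.eq, mul_inv_cancel_right]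
  have hneg : ∀ t u, B (-t) u = B t (-u) := fun t u => by
    have h0 : ∀ v, B 0 v = 1 := fun v => by
      have e := hadd 0 0 v; rw [add_zero] at e; exact mul_eq_left.1 e.symm
    have h0' : ∀ v, B v 0 = 1 := fun v => by
      have e := hadd' v 0 0; rw [add_zero] at e; exact mul_eq_left.1 e.symm
    have e1 := hadd t (-t) u
    have e2 := hadd' t u (-u)
    rw [add_neg_cancel, h0] at e1
    rw [add_neg_cancel, h0'] at e2
    rw [eq_inv_of_mul_eq_one_right e1.symm, eq_inv_of_mul_eq_one_right e2.symm]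
  have hmove : ∀ t u, B t u = B (t * u) 1 := fun t u => by
    rcases hF u with rfl | rfl | rfl
    · have e := hadd' t 0 0
      rw [add_zero] at e
      have e' := hadd 0 0 1
      rw [add_zero] at e'
      rw [mul_zero, mul_eq_left.1 e.symm, mul_eq_left.1 e'.symm]
    · rw [mul_one]
    · rw [mul_neg_one, hneg]
  set L : F → E := fun t => B ((C : F)⁻¹ * t) 1 with hL
  refine ⟨L, ⟨fun t => ?_, fun t u => ?_, fun k hkH c hkr t => ?_⟩, fun t u x y hx hy => ?_⟩
  · show π (B _ 1) = _
    rw [hπB, mul_one, mul_inv_cancel_left₀ hC]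
  · show B _ 1 * B _ 1 = B _ 1
    rw [mul_add, hadd]
  · obtain ⟨α, hα0, hα, -⟩ := exists_scalar hS hR hkH
    have hcα : c = α a * α b := by
      have e1 : S.x r ((C : F) * α a * α b) = S.x r (c * (C : F)) := by
        rw [← x_commutator_of_single S ha hb hr h1 h2 hterm (α a) (α b), ← hkr,
          show (C : F) = (C : F) * 1 * 1 by ring,
          ← x_commutator_of_single S ha hb hr h1 h2 hterm,
          conjugate_commutatorElement, hα a ha, hα b hb, mul_one, mul_one]
      have := x_inj S hR hr e1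
      exact mul_left_cancel₀ hC (by linear_combination -this)
    have e : k * L t * k⁻¹ = B (α a * ((C : F)⁻¹ * t)) (α b * 1) := by
      simp only [hL, hB, conjugate_commutatorElement]
      refine lift_comm_eq hc ?_ ?_
      · rw [map_mul, map_mul, map_inv, π_surjInv hπ, π_surjInv hπ, hα a ha]
      · rw [map_mul, map_mul, map_inv, π_surjInv hπ, π_surjInv hπ, hα b hb]
    rw [e, hmove, hcα]
    show B _ 1 = B _ 1
    congr 1
    ring
  · have e : ⁅x, y⁆ = B t u := lift_comm_eq hc (by rw [hx, π_surjInv hπ]) (by rw [hy, π_surjInv hπ])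
    rw [e, hmove]
    show B _ 1 = B _ 1
    congr 1
    field_simp

end Cfsg.Agent.Chev.UCE
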