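import Cfsg.Agent.Chev.UCE.Main

/-!
# Lifting in the natural characteristic

A central extension whose kernel is a torsion group without elements of order `p`, for a field of
characteristic `p`, splits over the group presented by (R1), (R2), with no restriction on the size
of the field.
-/

set_option autoImplicit false

namespace Cfsg.Agent.Chev.UCE

open Cfsg.Lie Cfsg.Agent.ChevGrp
open Cfsg.Agent.CentralExt.Laced (IsCentralMap lift_comm_eq)
open scoped commutatorElement

/-- Every pair of roots lies in an open half space given by the table. -/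
def posAll (D : ChevalleyDatum) (T : List (List ℕ)) : Bool :=
  (List.range D.nroots).all fun r => (List.range D.nroots).all fun s =>
    decide (s = r) || decide (s = D.neg r) ||
      (decide (0 < dot D (lam D (entry T r s)) r) && decide (0 < dot D (lam D (entry T r s)) s))

theorem posAll_B2 : posAll chevB2 posB2 = true := by decide +kernel
theorem posAll_G2 : posAll chevG2 posG2 = true := by decide +kernel
theorem posAll_D4 : posAll chevD4 posD4 = true := by decide +kernel
theorem posAll_F4 : posAll chevF4 posF4 = true := by decide +kernel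

variable {D : ChevalleyDatum} {F : Type*} [Field F] {len : ℕ → ℕ} {E G : Type*} [Group E] [Group G]
  (S : Sys D F G) {π : E →* G}

/-- The kernel is torsion without elements of order `p`. -/
def PrimeTo (π : E →* G) (p : ℕ) : Prop :=
  ∀ z, π z = 1 → IsOfFinOrder z ∧ (z ^ p = 1 → z = 1)

variable {p : ℕ} (hA : PrimeTo π p)
include hA

theorem PrimeTo.exists_root (hp : p.Prime) {z : E} (hz : π z = 1) :
    ∃ y, π y = 1 ∧ y ^ p = z := by
  have hpos : 0 < orderOf z := (hA z hz).1.orderOf_pos
  have hco : Nat.Coprime p (orderOf z) := by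
    refine (Nat.Prime.coprime_iff_not_dvd hp).2 fun hd => ?_
    have h1 := (hA (z ^ (orderOf z / p)) (by rw [map_pow, hz, one_pow])).2
      (by rw [← pow_mul, Nat.div_mul_cancel hd, pow_orderOf_eq_one])
    have hlt : orderOf z / p < orderOf z := Nat.div_lt_self hpos hp.one_lt
    have hne : orderOf z / p ≠ 0 :=
      (Nat.div_pos (Nat.le_of_dvd hpos hd) hp.pos).ne'
    exact pow_ne_one_of_lt_orderOf hne hlt h1
  obtain ⟨m, hm⟩ := exists_pow_eq_self_of_coprime hco
  exact ⟨z ^ m, by rw [map_pow, hz, one_pow], by rw [← pow_mul, mul_comm, pow_mul]; exact hm⟩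

variable (hc : IsCentralMap π)
include hc

omit hA in
theorem commute_of_kernel {z : E} (hz : π z = 1) (g : E) : Commute z g := (hc z hz g).symm

theorem eq_of_pow {a b : E} (h : π a = π b) (ha : a ^ p = 1) (hb : b ^ p = 1) : a = b := by
  have hz : π (a⁻¹ * b) = 1 := by rw [map_mul, map_inv, h, inv_mul_cancel]
  have h1 : (a⁻¹ * b) ^ p = 1 := by
    have e := (commute_of_kernel hc hz a).symm.mul_pow p
    rw [mul_inv_cancel_left, hb, ha, one_mul] at e
    exact e.symm
  exact inv_mul_eq_one.1 ((hA _ hz).2 h1)

/-- The relations lift when the kernel has no `p`-torsion. -/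
theorem exists_sys_of_primeTo (hπ : Function.Surjective π) (hS : Rules D F) (hR : RootTable D len)
    (hp : p.Prime) (hpF : (p : F) = 0) (T : List (List ℕ)) (hT : posAll D T = true) :
    ∃ U : Sys D F E, ∀ r < D.nroots, ∀ t, π (U.x r t) = S.x r t := by
  classical
  simp only [posAll, List.all_eq_true, List.mem_range, Bool.and_eq_true, Bool.or_eq_true,
    decide_eq_true_eq] at hT
  have hxp : ∀ r < D.nroots, ∀ (t : F) (m : ℕ), (S.x r t) ^ m = S.x r (m * t) := by
    intro r hr t m
    induction m with
    | zero => rw [pow_zero, Nat.cast_zero, zero_mul, S.x_zero hr]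
    | succ m ih => rw [pow_succ, ih, S.x_add r hr, Nat.cast_succ, add_mul, one_mul]
  have hex : ∀ r, ∀ t : F, ∃ y : E, r < D.nroots → π y = S.x r t ∧ y ^ p = 1 := by
    intro r t
    by_cases hr : r < D.nroots
    · obtain ⟨y, hy⟩ := hπ (S.x r t)
      have hk : π (y ^ p) = 1 := by rw [map_pow, hy, hxp r hr, hpF, zero_mul, S.x_zero hr]
      obtain ⟨b, hb, hbp⟩ := hA.exists_root hp hk
      refine ⟨y * b⁻¹, fun _ => ⟨by rw [map_mul, map_inv, hb, inv_one, mul_one, hy], ?_⟩⟩
      rw [((commute_of_kernel hc hb y).symm.inv_right).mul_pow, inv_pow, hbp, mul_inv_cancel]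
    · exact ⟨1, fun h => absurd h hr⟩
  choose L hL' using hex
  have hL : ∀ r < D.nroots, IsFam S π r (L r) := fun r hr => by
    refine ⟨fun t => (hL' r t hr).1, fun t u => ?_, fun k _ c hk t => ?_⟩
    · set a := L r t
      set b := L r u
      have hz : π (a * b * a⁻¹ * b⁻¹) = 1 := by
        rw [map_mul, map_mul, map_mul, map_inv, map_inv, (hL' r t hr).1, (hL' r u hr).1,
          S.x_add r hr, S.x_inv hr, S.x_inv hr, S.x_add r hr, S.x_add r hr,
          show t + u + -t + -u = 0 by ring, S.x_zero hr]
      have h1 : (a * b * a⁻¹ * b⁻¹) ^ p = 1 := by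
        have e : (a * b * a⁻¹) ^ p = (a * b * a⁻¹ * b⁻¹) ^ p * b ^ p := by
          rw [← (commute_of_kernel hc hz b).mul_pow, inv_mul_cancel_right]
        rwa [conj_pow, (hL' r u hr).2, mul_one, mul_inv_cancel, mul_one, eq_comm] at e
      have hab : Commute a b := commutatorElement_eq_one_iff_mul_comm.1 ((hA _ hz).2 h1)
      refine eq_of_pow hA hc ?_ ?_ (hL' r _ hr).2
      · rw [map_mul, (hL' r t hr).1, (hL' r u hr).1, (hL' r _ hr).1, S.x_add r hr]
      · rw [hab.mul_pow, (hL' r t hr).2, (hL' r u hr).2, one_mul]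
    · refine eq_of_pow hA hc ?_ ?_ (hL' r _ hr).2
      · rw [map_mul, map_mul, map_inv, (hL' r t hr).1, (hL' r _ hr).1, hk]
      · rw [conj_pow, (hL' r t hr).2, mul_one, mul_inv_cancel]
  have key : ∀ N : ℕ, ∀ r < D.nroots, ∀ s < D.nroots, s ≠ r → s ≠ D.neg r →
      (sector D len r s).ncard = N → Rel D L r s := by
    intro N
    induction N using Nat.strong_induction_on with
    | _ N ih => ?_
    intro r hr s hs h1 h2 hN
    obtain ⟨hpr, hps⟩ := ((hT r hr s hs).resolve_left (not_or.2 ⟨h1, h2⟩))
    set l := lam D (entry T r s)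
    have hφr : 0 < dotHom D len l (vec D len r) := by rw [dotHom_vec hR l hr]; omega
    have hφs : 0 < dotHom D len l (vec D len s) := by rw [dotHom_vec hR l hs]; omega
    have hcl := insert_sector_closed hR (dotHom D len l) hs hφr hφs
    set A := ((sector_finite (D := D) (len := len) r s).insert s).toFinset with hAdef
    have hcl' : UClosed D len (dotHom D len l) (↑A) := by rwa [hAdef, Set.Finite.coe_toFinset]
    have hinj : ∀ g ∈ UA L (insert s (sector D len r s)), π g = 1 → g = 1 := by
      intro g hg hg1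
      refine inj_of_rel hL hR (dotHom D len l) A hcl' (fun a ha b hb hne => ?_) g
        (by rwa [hAdef, Set.Finite.coe_toFinset]) hg1
      rw [hAdef, Set.Finite.mem_toFinset] at ha hb
      have hab : b ≠ D.neg a := fun e => by
        have h3 := hcl.pos a ha
        have h4 := hcl.pos b hb
        have := hR.deg_neg (dotHom D len l) (hcl.lt a ha)
        rw [← e] at this
        omega
      refine ih _ ?_ a (hcl.lt a ha) b (hcl.lt b hb) hne hab rfl
      rw [← hN]
      exact Set.ncard_lt_ncard (sector_ssubset hR _ hφr hφs ha hb hne) (sector_finite r s)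
    intro t u
    set f := (L r t)⁻¹ * L s u * L r t with hf
    set w := L s u * word D L r s t u with hw
    have hπf : π f = π w := by
      simp only [hf, hw, map_mul, map_inv, (hL r hr).map, (hL s hs).map,
        π_word hL hR hr hs h1 h2]
      rw [mul_assoc, S.comm r hr s hs h1 h2 t u, ← mul_assoc, ← mul_assoc, inv_mul_cancel, one_mul]
    have hfp : f ^ p = 1 := by
      have e : f = (L r t)⁻¹ * L s u * ((L r t)⁻¹)⁻¹ := by rw [inv_inv]
      rw [e, conj_pow, (hL' s u hs).2, mul_one, mul_inv_cancel]
    have hwp : w ^ p = 1 := by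
      refine hinj _ (pow_mem (mul_mem (L_mem (Set.mem_insert _ _) u)
        (word_mem hR hr hs h1 h2 (Set.subset_insert _ _) t u)) p) ?_
      rw [map_pow, ← hπf, ← map_pow, hfp, map_one]
    have h2' : f = w := eq_of_pow hA hc hπf hfp hwp
    calc L s u * L r t = L r t * f := by rw [hf]; group
      _ = _ := by rw [h2', hw, mul_assoc]
  exact ⟨{ x := L
           θ := S.θ.comp π
           θ_x := fun r hr t => by rw [MonoidHom.comp_apply, (hL r hr).map, S.θ_x r hr]
           x_add := fun r hr t u => (hL r hr).add t u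
           comm := fun r hr s hs h1 h2 t u => key _ r hr s hs h1 h2 rfl t u },
    fun r hr t => (hL r hr).map t⟩

end Cfsg.Agent.Chev.UCE

namespace Cfsg.Agent.Chev.UCE

open Cfsg.Lie Cfsg.Agent.ChevGrp Cfsg.Agent.CentralExt
open Cfsg.Agent.CentralExt.Laced (IsCentralMap lift_comm_eq)
open scoped commutatorElement

universe u v w

variable {D : ChevalleyDatum} {K : Type u} [Field K]

/-- Every perfect central extension of the group presented by (R1), (R2) whose kernel is torsion
without elements of order `p` splits. -/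
theorem splits_prime (hD : D ∈ [chevG2, chevB2, chevD4, chevF4, chevE6, chevE7, chevE8])
    {p : ℕ} (hp : p.Prime) (hpK : (p : K) = 0) {E : Type v} [Group E]
    {π : E →* D.SteinbergCover K} (hπ : Function.Surjective π) (hc : IsCentralMap π)
    (hA : PrimeTo π p) : ∃ τ : D.SteinbergCover K →* E, π.comp τ = MonoidHom.id _ := by
  have hS := rules_of_mem K hD
  obtain ⟨len, hR⟩ := hS.root
  simp only [List.mem_cons, List.not_mem_nil, or_false] at hD
  have sect : (∃ T : Sys D K E, ∀ r < D.nroots, ∀ t, π (T.x r t) = (Cover.scSys hS).x r t) →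
      ∃ τ : D.SteinbergCover K →* E, π.comp τ = MonoidHom.id _ := by
    rintro ⟨T, hT⟩
    set g : ℕ → K → E := fun r t => if r < D.nroots then T.x r t else 1 with hg
    have hX : ∀ (r : ℕ) (t : K),
        FreeGroup.lift (fun q : Fin D.nroots × K => T.x q.1 q.2) (D.stX r t) = g r t := by
      intro r t
      by_cases hr : r < D.nroots
      · simp [hg, hr, ChevalleyDatum.stX]
      · simp [hg, hr, ChevalleyDatum.stX]
    have hkill : ∀ z ∈ D.steinbergRelsAB K,
        FreeGroup.lift (fun q : Fin D.nroots × K => T.x q.1 q.2) z = 1 := by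
      rintro z (⟨r, t₁, t₂, hr, rfl⟩ | ⟨r, s, t, u, hr, hs, h1, h2, rfl⟩)
      · simp only [map_mul, map_inv, hX, hg, hr, if_true]
        exact mul_inv_eq_one.2 (T.x_add r hr t₁ t₂)
      · simp only [map_mul, map_inv, hX, stWord_lift _ _ hX]
        have e : ((D.commWord K r s t u).map fun q => g q.1 q.2).prod =
            ((D.commWord K r s t u).map fun q => T.x q.1 q.2).prod := by
          refine congrArg List.prod (List.map_congr_left fun q hq => ?_)
          simp only [ChevalleyDatum.commWord, List.mem_map] at hq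
          obtain ⟨c, hc', rfl⟩ := hq
          simp [hg, (hR.commTerms_vec r hr s hs h1 h2 c hc').1]
        rw [e]
        simp only [hg, hr, hs, if_true]
        rw [mul_inv_eq_one, mul_assoc, mul_assoc, T.comm r hr s hs h1 h2 t u]
        simp [mul_assoc]
    refine ⟨PresentedGroup.toGroup hkill, PresentedGroup.ext fun q => ?_⟩
    rw [MonoidHom.comp_apply, PresentedGroup.toGroup.of, MonoidHom.id_apply, Cover.of_eq_scGen]
    exact hT q.1 q.1.2 q.2
  rcases hD with rfl | rfl | rfl | rfl | rfl | rfl | rfl
  · exact sect (exists_sys_of_primeTo _ hA hc hπ hS hR hp hpK _ posAll_G2)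
  · exact sect (exists_sys_of_primeTo _ hA hc hπ hS hR hp hpK _ posAll_B2)
  · exact sect (exists_sys_of_primeTo _ hA hc hπ hS hR hp hpK _ posAll_D4)
  · exact sect (exists_sys_of_primeTo _ hA hc hπ hS hR hp hpK _ posAll_F4)
  · exact Laced.exists_section hS Laced.lacedOK_E6 hπ hc
  · exact Laced.exists_section hS Laced.lacedOK_E7 hπ hc
  · exact Laced.exists_section hS Laced.lacedOK_E8 hπ hc

variable {G₁ : Type w} {E₁ : Type v} [Group G₁] [Group E₁]

/-- Lifting of homomorphisms through central extensions with kernel prime to `p`. -/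
theorem exists_lift_prime (hD : D ∈ [chevG2, chevB2, chevD4, chevF4, chevE6, chevE7, chevE8])
    {p : ℕ} (hp : p.Prime) (hpK : (p : K) = 0) (hperf : commutator (D.SteinbergCover K) = ⊤)
    (π : E₁ →* G₁) (hπ : Function.Surjective π) (hc : π.ker ≤ Subgroup.center E₁)
    (hA : ∀ z ∈ commutator E₁, π z = 1 → IsOfFinOrder z ∧ (z ^ p = 1 → z = 1))
    (σ : D.SteinbergCover K →* G₁) : ∃ τ : D.SteinbergCover K →* E₁, π.comp τ = σ := by
  have hc' : IsCentralMap π := fun z hz g => Subgroup.mem_center_iff.1 (hc hz) g
  let P : Subgroup (D.SteinbergCover K × E₁) :=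
    MonoidHom.eqLocus (σ.comp (MonoidHom.fst _ _)) (π.comp (MonoidHom.snd _ _))
  let f : P →* D.SteinbergCover K := (MonoidHom.fst _ _).comp P.subtype
  let g : P →* E₁ := (MonoidHom.snd _ _).comp P.subtype
  have hps : Function.Surjective f := fun d => by
    obtain ⟨e, he⟩ := hπ (σ d)
    exact ⟨⟨(d, e), he.symm⟩, rfl⟩
  have hsq : ∀ x : P, π (g x) = σ (f x) := fun x => x.2.symm
  let f' : commutator P →* D.SteinbergCover K := f.comp (commutator P).subtype
  have hps' : Function.Surjective f' := fun d => by
    have h1 : d ∈ (commutator P).map f := by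
      rw [commutator_def, Subgroup.map_commutator, Subgroup.map_top_of_surjective f hps,
        ← commutator_def, hperf]
      trivial
    obtain ⟨y, hy, rfl⟩ := h1
    exact ⟨⟨y, hy⟩, rfl⟩
  have hz1 : ∀ z : P, f z = 1 → π (g z) = 1 := fun z hz => by rw [hsq, hz, map_one]
  have hinj : ∀ z : P, f z = 1 → g z = 1 → z = 1 := fun z h1 h2 =>
    Subtype.ext (Prod.ext h1 h2)
  have hpc : IsCentralMap f' := fun z hz y => by
    refine Subtype.ext (Subtype.ext (Prod.ext ?_ (hc' _ (hz1 _ hz) (g y.1))))
    show f y.1 * f z.1 = f z.1 * f y.1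
    rw [show f z.1 = 1 from hz, mul_one, one_mul]
  have hP : PrimeTo f' p := fun z hz => by
    have hm : g z.1 ∈ commutator E₁ := by
      have hle : (commutator P).map g ≤ commutator E₁ := by
        rw [commutator_def, Subgroup.map_commutator]
        exact Subgroup.commutator_mono le_top le_top
      exact hle (Subgroup.mem_map_of_mem g z.2)
    obtain ⟨hfin, hp1⟩ := hA _ hm (hz1 _ hz)
    refine ⟨?_, fun h => ?_⟩
    · obtain ⟨m, hm0, hm1⟩ := isOfFinOrder_iff_pow_eq_one.1 hfin
      refine isOfFinOrder_iff_pow_eq_one.2 ⟨m, hm0, Subtype.ext (hinj _ ?_ ?_)⟩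
      · show f' (z ^ m) = 1
        rw [map_pow, hz, one_pow]
      · show (g.comp (commutator P).subtype) (z ^ m) = 1
        rw [map_pow]
        exact hm1
    · refine Subtype.ext (hinj _ hz (hp1 ?_))
      rw [← map_pow]
      exact congrArg g (congrArg Subtype.val h) |>.trans (map_one g)
  obtain ⟨τ, hτ⟩ := splits_prime hD hp hpK hps' hpc hP
  refine ⟨g.comp ((commutator P).subtype.comp τ), MonoidHom.ext fun d => ?_⟩
  show π (g (τ d).1) = σ d
  rw [hsq]
  exact congrArg σ (DFunLike.congr_fun hτ d)

/-- Two lifts of a homomorphism of a perfect group through a central extension agree. -/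
theorem lift_unique {Δ : Type*} [Group Δ] (hperf : commutator Δ = ⊤) {π : E₁ →* G₁}
    (hc : IsCentralMap π) {τ τ' : Δ →* E₁} (h : π.comp τ = π.comp τ') : τ = τ' := by
  have hle : commutator Δ ≤ MonoidHom.eqLocus τ τ' := by
    rw [commutator_def, Subgroup.commutator_le]
    intro a _ b _
    show τ ⁅a, b⁆ = τ' ⁅a, b⁆
    rw [map_commutatorElement, map_commutatorElement]
    exact lift_comm_eq hc (DFunLike.congr_fun h a) (DFunLike.congr_fun h b)
  exact MonoidHom.ext fun d => hle (by rw [hperf]; trivial)

/-- Projective representations in the natural characteristic lift uniquely. -/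
theorem existsUnique_lift_projective {D : ChevalleyDatum}
    (hD : D ∈ [chevG2, chevB2, chevD4, chevF4, chevE6, chevE7, chevE8])
    (hK : D ∈ [chevB2, chevG2] → ∃ x : K, x ≠ 0 ∧ x ≠ 1) {L : Type v} [Field L]
    (hL : ringChar L = ringChar K) {n : ℕ}
    (σ : D.SteinbergCover K →* GL (Fin n) L ⧸ Subgroup.center (GL (Fin n) L)) :
    ∃! ψ : D.SteinbergCover K →* GL (Fin n) L,
      (QuotientGroup.mk' (Subgroup.center (GL (Fin n) L))).comp ψ = σ := by
  have hS := rules_of_mem K hD
  have hP : Sys.PerfectData D K := by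
    simp only [List.mem_cons, List.not_mem_nil, or_false] at hD hK
    rcases hD with rfl | rfl | rfl | rfl | rfl | rfl | rfl
    exacts [perfectData_G2 K (hK (Or.inr rfl)), perfectData_B2 K (hK (Or.inl rfl)),
      perfectData_D4 K, perfectData_F4 K, perfectData_E6 K, perfectData_E7 K, perfectData_E8 K]
  have hperf := Cover.perfect hS hP
  set π := QuotientGroup.mk' (Subgroup.center (GL (Fin n) L))
  have hker : π.ker ≤ Subgroup.center (GL (Fin n) L) := (QuotientGroup.ker_mk' _).le
  have hc : IsCentralMap π := fun z hz g => Subgroup.mem_center_iff.1 (hker hz) g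
  have hπ : Function.Surjective π := QuotientGroup.mk'_surjective _
  suffices h : ∃ ψ, π.comp ψ = σ by
    obtain ⟨ψ, hψ⟩ := h
    exact ⟨ψ, hψ, fun ψ' h' => lift_unique hperf hc (h'.trans hψ.symm)⟩
  rcases CharP.char_is_prime_or_zero K (ringChar K) with hp | h0
  · set p := ringChar K
    haveI : Fact p.Prime := ⟨hp⟩
    haveI : CharP L p := hL ▸ ringChar.charP L
    refine exists_lift_prime hD hp (CharP.cast_eq_zero K p) hperf π hπ hker (fun z hz hz1 => ?_) σ
    rcases Nat.eq_zero_or_pos n with rfl | hn
    · obtain rfl : z = 1 := Subsingleton.elim _ _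
      exact ⟨IsOfFinOrder.one, fun _ => rfl⟩
    have hzc : z ∈ Subgroup.center (GL (Fin n) L) := hker hz1
    rw [Matrix.GeneralLinearGroup.center_eq_range_scalar] at hzc
    obtain ⟨c, rfl⟩ := hzc
    have hdet : c ^ n = 1 := by
      have h1 := Abelianization.commutator_subset_ker
        (Matrix.GeneralLinearGroup.det (n := Fin n) (R := L)) hz
      rwa [MonoidHom.mem_ker, Matrix.GeneralLinearGroup.det_scalar, Fintype.card_fin] at h1
    refine ⟨isOfFinOrder_iff_pow_eq_one.2 ⟨n, hn, by rw [← map_pow, hdet, map_one]⟩, fun h => ?_⟩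
    rw [← map_pow] at h
    have h2 : c ^ p = 1 := by
      have h3 := congrArg (fun g : GL (Fin n) L => (g : Matrix (Fin n) (Fin n) L) ⟨0, hn⟩ ⟨0, hn⟩) h
      simp only [Matrix.GeneralLinearGroup.coe_scalar, Matrix.scalar_apply,
        Matrix.diagonal_apply_eq, Units.val_one, Matrix.one_apply_eq] at h3
      exact Units.ext (by simpa using h3)
    have h4 : c = 1 := by
      refine Units.ext (sub_eq_zero.1 (pow_eq_zero_iff hp.ne_zero |>.1 ?_))
      rw [sub_pow_char, ← Units.val_pow_eq_pow_val, h2]
      simp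
    rw [h4, map_one]
  · haveI : CharP K 0 := h0 ▸ ringChar.charP K
    haveI : CharZero K := CharP.charP_to_charZero K
    obtain ⟨s, hs⟩ := Infinite.exists_subset_card_eq K 5
    exact (existsUnique_lift hS hP (splits_of_mem hD s (by omega)) π hπ hker σ).exists

end Cfsg.Agent.Chev.UCE
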