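import Cfsg.Agent.Chev.UCE.Lift

/-!
# The commutator relations for the preimages

The preimages satisfy the commutator formula, by induction on the set of roots in the open sector
spanned by two roots.
-/

set_option autoImplicit false

namespace Cfsg.Agent.Chev.UCE

open Cfsg.Lie Cfsg.Agent.ChevGrp
open Cfsg.Agent.CentralExt.Laced (IsCentralMap)
open scoped commutatorElement

variable {D : ChevalleyDatum} {F : Type*} [Field F] {len : ℕ → ℕ} {E G : Type*} [Group E] [Group G]
  (S : Sys D F G) (π : E →* G) (L : ℕ → F → E)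

/-- The right hand side of the commutator formula for the preimages. -/
def word (D : ChevalleyDatum) (L : ℕ → F → E) (r s : ℕ) (t u : F) : E := ((D.commWord F r s t u).map fun p => L p.1 p.2).prod

/-- The commutator formula for the preimages. -/
def Rel (D : ChevalleyDatum) (L : ℕ → F → E) (r s : ℕ) : Prop := ∀ t u : F, L s u * L r t = L r t * L s u * word D L r s t u

/-- The subgroup generated by the preimages over a set of roots. -/
def UA (A : Set ℕ) : Subgroup E := Subgroup.closure {g | ∃ r ∈ A, ∃ t, g = L r t}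

variable (D) in
/-- The roots that are positive combinations of two roots. -/
def sector (len : ℕ → ℕ) (r s : ℕ) : Set ℕ :=
  {u | u < D.nroots ∧ ∃ i j : ℕ, 0 < i ∧ 0 < j ∧
    vec D len u = (i : ℤ) • vec D len r + (j : ℤ) • vec D len s}

theorem sector_comm (r s : ℕ) : sector D len r s = sector D len s r := by
  ext u
  constructor <;> rintro ⟨hu, i, j, hi, hj, e⟩ <;> exact ⟨hu, j, i, hj, hi, by rw [e, add_comm]⟩

theorem sector_finite (r s : ℕ) : (sector D len r s).Finite :=
  (Set.finite_lt_nat D.nroots).subset fun _ h => h.1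

theorem mem_sector_of_term (hR : RootTable D len) {r s : ℕ} (hr : r < D.nroots) (hs : s < D.nroots)
    (h1 : s ≠ r) (h2 : s ≠ D.neg r) {c : ℕ × ℤ × ℕ × ℕ} (hc : c ∈ D.commTerms r s) :
    c.1 ∈ sector D len r s := by
  obtain ⟨hlt, hi, hj, hv⟩ := hR.commTerms_vec r hr s hs h1 h2 c hc
  exact ⟨hlt, c.2.2.1, c.2.2.2, hi, hj, hv⟩

theorem pos_sector {φ : (Fin D.rank → ℤ) →+ ℤ} {r s u : ℕ} (hφr : 0 < φ (vec D len r))
    (hφs : 0 < φ (vec D len s)) (hu : u ∈ sector D len r s) : 0 < φ (vec D len u) := by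
  obtain ⟨-, i, j, hi, hj, e⟩ := hu
  rw [e, map_add, map_zsmul, map_zsmul, smul_eq_mul, smul_eq_mul]
  positivity

/-- The sector, with one of its boundary roots added, is closed. -/
theorem insert_sector_closed (hR : RootTable D len) (φ : (Fin D.rank → ℤ) →+ ℤ) {r s : ℕ}
    (hs : s < D.nroots) (hφr : 0 < φ (vec D len r)) (hφs : 0 < φ (vec D len s)) :
    UClosed D len φ (insert s (sector D len r s)) where
  lt p hp := hp.elim (fun e => e ▸ hs) fun h => h.1
  pos p hp := hp.elim (fun e => e ▸ hφs) fun h => pos_sector hφr hφs h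
  closed p hp q hq hne c hc := by
    have hp0 : p < D.nroots := hp.elim (fun e => e ▸ hs) fun h => h.1
    have hq0 : q < D.nroots := hq.elim (fun e => e ▸ hs) fun h => h.1
    have hp1 : 0 < φ (vec D len p) := hp.elim (fun e => e ▸ hφs) fun h => pos_sector hφr hφs h
    have hq1 : 0 < φ (vec D len q) := hq.elim (fun e => e ▸ hφs) fun h => pos_sector hφr hφs h
    have hne' : q ≠ D.neg p := fun e => by
      have := hR.deg_neg φ hp0
      rw [← e] at this
      omega
    obtain ⟨hlt, hi, hj, hv⟩ := hR.commTerms_vec p hp0 q hq0 hne hne' c hc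
    refine Or.inr ⟨hlt, ?_⟩
    rcases hp with rfl | ⟨-, i, j, hi', hj', ep⟩
    · rcases hq with rfl | ⟨-, k, l, hk, hl, eq⟩
      · exact absurd rfl hne
      · refine ⟨c.2.2.2 * k, c.2.2.1 + c.2.2.2 * l, by positivity, by positivity, ?_⟩
        rw [hv, eq]; push_cast; module
    · rcases hq with rfl | ⟨-, k, l, hk, hl, eq⟩
      · refine ⟨c.2.2.1 * i, c.2.2.1 * j + c.2.2.2, by positivity, by positivity, ?_⟩
        rw [hv, ep]; push_cast; module
      · refine ⟨c.2.2.1 * i + c.2.2.2 * k, c.2.2.1 * j + c.2.2.2 * l, by positivity, by positivity, ?_⟩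
        rw [hv, ep, eq]; push_cast; module

/-- A sector of two roots inside a sector is strictly smaller. -/
theorem sector_ssubset (hR : RootTable D len) (φ : (Fin D.rank → ℤ) →+ ℤ) {r s p q : ℕ}
    (hφr : 0 < φ (vec D len r)) (hφs : 0 < φ (vec D len s))
    (hp : p ∈ insert s (sector D len r s)) (hq : q ∈ insert s (sector D len r s)) (hne : q ≠ p) :
    sector D len p q ⊂ sector D len r s := by
  -- one of the two roots lies in the open sector
  wlog hp' : p ∈ sector D len r s generalizing p q with H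
  · rw [sector_comm]
    refine H hq hp hne.symm (hq.resolve_left fun e => ?_)
    exact hne (e.trans (hp.resolve_right hp').symm)
  have hsub : ∀ u ∈ sector D len p q, u ∈ sector D len r s ∧
      φ (vec D len p) < φ (vec D len u) := by
    rintro u ⟨hu, a, b, ha, hb, eu⟩
    have hq1 : 0 < φ (vec D len q) := hq.elim (fun e => e ▸ hφs) fun h => pos_sector hφr hφs h
    have hp1 := pos_sector hφr hφs hp'
    refine ⟨⟨hu, ?_⟩, ?_⟩
    · obtain ⟨-, i, j, hi, hj, ep⟩ := hp'
      rcases hq with rfl | ⟨-, k, l, hk, hl, eq⟩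
      · exact ⟨a * i, a * j + b, by positivity, by positivity, by rw [eu, ep]; push_cast; module⟩
      · exact ⟨a * i + b * k, a * j + b * l, by positivity, by positivity,
          by rw [eu, ep, eq]; push_cast; module⟩
    · rw [eu, map_add, map_zsmul, map_zsmul, smul_eq_mul, smul_eq_mul]
      nlinarith
  refine Set.ssubset_iff_of_subset (fun u hu => (hsub u hu).1) |>.2 ?_
  obtain ⟨m, hm, hmin⟩ := (sector_finite (len := len) r s).toFinset.exists_min_image
    (fun u => φ (vec D len u)) ⟨p, by simpa using hp'⟩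
  refine ⟨m, by simpa using hm, fun h => ?_⟩
  have h1 := (hsub m h).2
  have h2 := hmin p (by simpa using hp')
  omega

variable {S π L}

theorem word_mem {A : Set ℕ} (hR : RootTable D len) {r s : ℕ} (hr : r < D.nroots) (hs : s < D.nroots)
    (h1 : s ≠ r) (h2 : s ≠ D.neg r) (hA : sector D len r s ⊆ A) (t u : F) :
    word D L r s t u ∈ UA L A := by
  refine Subgroup.list_prod_mem _ fun g hg => ?_
  obtain ⟨p, hp, rfl⟩ := List.mem_map.1 hg
  simp only [ChevalleyDatum.commWord, List.mem_map] at hp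
  obtain ⟨c, hc, rfl⟩ := hp
  exact Subgroup.subset_closure ⟨c.1, hA (mem_sector_of_term hR hr hs h1 h2 hc), _, rfl⟩

theorem L_mem {A : Set ℕ} {r : ℕ} (h : r ∈ A) (t : F) : L r t ∈ UA L A :=
  Subgroup.subset_closure ⟨r, h, t, rfl⟩

variable (hL : ∀ r < D.nroots, IsFam S π r (L r))
include hL

theorem π_word (hR : RootTable D len) {r s : ℕ} (hr : r < D.nroots) (hs : s < D.nroots)
    (h1 : s ≠ r) (h2 : s ≠ D.neg r) (t u : F) :
    π (word D L r s t u) = ((D.commWord F r s t u).map fun p => S.x p.1 p.2).prod := by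
  rw [word, map_list_prod, List.map_map]
  refine congrArg List.prod (List.map_congr_left fun p hp => ?_)
  simp only [ChevalleyDatum.commWord, List.mem_map] at hp
  obtain ⟨c, hc, rfl⟩ := hp
  exact (hL _ (hR.commTerms_vec r hr s hs h1 h2 c hc).1).map _

/-- A relation whose terms all vanish. -/
theorem rel_of_kill (hR : RootTable D len) {r s : ℕ} (hr : r < D.nroots) (hs : s < D.nroots)
    (h1 : s ≠ r) (h2 : s ≠ D.neg r) (hk : Kill S π r s)
    (h0 : ∀ c ∈ D.commTerms r s, ((c.2.1 : ℤ) : F) = 0) : Rel D L r s := by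
  intro t u
  have hw : word D L r s t u = 1 := by
    refine List.prod_eq_one fun g hg => ?_
    simp only [ChevalleyDatum.commWord, List.map_map, List.mem_map, Function.comp_apply] at hg
    obtain ⟨c, hc, rfl⟩ := hg
    rw [h0 c hc, zero_mul, zero_mul, (hL _ (hR.commTerms_vec r hr s hs h1 h2 c hc).1).zero]
  rw [hw, mul_one]
  exact (hk t u _ _ ((hL r hr).map t) ((hL s hs).map u)).eq.symm

/-- The images of the generated subgroup. -/
theorem map_UA_le {A : Set ℕ} (hA : ∀ r ∈ A, r < D.nroots) {g : E} (hg : g ∈ UA L A) :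
    π g ∈ S.US A := by
  refine Subgroup.closure_induction ?_ ?_ ?_ ?_ hg
  · rintro _ ⟨r, hr, t, rfl⟩
    rw [(hL r (hA r hr)).map]
    exact S.x_mem_US hr t
  · rw [map_one]; exact one_mem _
  · exact fun _ _ _ _ h₁ h₂ => by rw [map_mul]; exact mul_mem h₁ h₂
  · exact fun _ _ h => by rw [map_inv]; exact inv_mem h

/-- The map is injective on the preimages over a closed set with all relations. -/
theorem inj_of_rel (hR : RootTable D len) (φ : (Fin D.rank → ℤ) →+ ℤ) :
    ∀ A : Finset ℕ, UClosed D len φ (↑A) →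
      (∀ p ∈ A, ∀ q ∈ A, q ≠ p → Rel D L p q) → ∀ g ∈ UA L (↑A : Set ℕ), π g = 1 → g = 1 := by
  classical
  intro A
  induction A using Finset.strongInduction with
  | H A ih => ?_
  intro hA hrel g hg hπg
  rcases A.eq_empty_or_nonempty with rfl | hne
  · have hle : UA L (↑(∅ : Finset ℕ) : Set ℕ) ≤ ⊥ := by
      rw [UA, Subgroup.closure_le]
      rintro _ ⟨r, hr, -⟩
      simp at hr
    exact Subgroup.mem_bot.1 (hle hg)
  obtain ⟨m, hm, hmin⟩ := A.exists_min_image (fun u => φ (vec D len u)) hne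
  set B := A.erase m with hB
  have hBc : UClosed D len φ (↑B) := by
    refine hA.subset_closed (by simp [hB]) fun p hp q hq hne' c hc => ?_
    simp only [hB, Finset.coe_erase, Set.mem_sdiff, Finset.mem_coe, Set.mem_singleton_iff] at hp hq ⊢
    refine ⟨hA.closed p hp.1 q hq.1 hne' c hc, fun e => ?_⟩
    have hp1 := hA.pos p hp.1
    have hq1 := hA.pos q hq.1
    have hne2 : q ≠ D.neg p := fun e => by
      have := hR.deg_neg φ (hA.lt p hp.1)
      rw [← e] at this
      omega
    obtain ⟨-, hi, hj, hv⟩ := hR.commTerms_vec p (hA.lt p hp.1) q (hA.lt q hq.1) hne' hne2 c hc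
    have h1 := hmin p hp.1
    rw [← e, hv, map_add, map_zsmul, map_zsmul, smul_eq_mul, smul_eq_mul] at h1
    nlinarith
  -- the first root normalises the others
  have hnorm : ∀ t : F, ∀ y ∈ UA L (↑B : Set ℕ), (L m t)⁻¹ * y * L m t ∈ UA L (↑B : Set ℕ) := by
    intro t y hy
    refine Subgroup.closure_induction ?_ ?_ ?_ ?_ hy
    · rintro _ ⟨q, hq, u, rfl⟩
      have hq' : q ≠ m ∧ q ∈ A := by simpa [hB, and_comm] using hq
      rw [mul_assoc, hrel m hm q hq'.2 hq'.1 t u, ← mul_assoc, inv_mul_cancel_left]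
      refine mul_mem (L_mem hq u) (Subgroup.list_prod_mem _ fun g hg => ?_)
      obtain ⟨p, hp, rfl⟩ := List.mem_map.1 hg
      simp only [ChevalleyDatum.commWord, List.mem_map] at hp
      obtain ⟨c, hc, rfl⟩ := hp
      refine L_mem ?_ _
      simp only [hB, Finset.coe_erase, Set.mem_sdiff, Finset.mem_coe, Set.mem_singleton_iff]
      refine ⟨hA.closed m hm q hq'.2 hq'.1 c hc, fun e => ?_⟩
      have hp1 := hA.pos m hm
      have hq1 := hA.pos q hq'.2
      have hne2 : q ≠ D.neg m := fun e => by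
        have := hR.deg_neg φ (hA.lt m hm)
        rw [← e] at this
        omega
      obtain ⟨-, hi, hj, hv⟩ :=
        hR.commTerms_vec m (hA.lt m hm) q (hA.lt q hq'.2) hq'.1 hne2 c hc
      have h1 : φ (vec D len c.1) = φ (vec D len m) := by rw [e]
      rw [hv, map_add, map_zsmul, map_zsmul, smul_eq_mul, smul_eq_mul] at h1
      nlinarith
    · simp
    · intro a b _ _ ha hb
      have := mul_mem ha hb
      convert this using 1
      group
    · intro a _ ha
      have := inv_mem ha
      convert this using 1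
      group
  -- the normal form
  have hform : ∀ x ∈ UA L (↑A : Set ℕ), ∃ t : F, ∃ y ∈ UA L (↑B : Set ℕ), x = L m t * y := by
    intro x hx
    refine Subgroup.closure_induction ?_ ?_ ?_ ?_ hx
    · rintro _ ⟨q, hq, u, rfl⟩
      rcases eq_or_ne q m with rfl | hqm
      · exact ⟨u, 1, one_mem _, (mul_one _).symm⟩
      · exact ⟨0, L q u, L_mem (by simp [hB, hqm]; exact hq) u, by
          rw [(hL m (hA.lt m hm)).zero, one_mul]⟩
    · exact ⟨0, 1, one_mem _, by rw [(hL m (hA.lt m hm)).zero, one_mul]⟩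
    · rintro _ _ _ _ ⟨t, y, hy, rfl⟩ ⟨t', y', hy', rfl⟩
      refine ⟨t + t', (L m t')⁻¹ * y * L m t' * y', mul_mem (hnorm t' y hy) hy', ?_⟩
      rw [← (hL m (hA.lt m hm)).add]
      group
    · rintro _ _ ⟨t, y, hy, rfl⟩
      refine ⟨-t, (L m (-t))⁻¹ * y⁻¹ * L m (-t), hnorm _ _ (inv_mem hy), ?_⟩
      rw [(hL m (hA.lt m hm)).neg]
      group
  obtain ⟨t, y, hy, rfl⟩ := hform g hg
  have hπy := map_UA_le hL hBc.lt hy
  rw [map_mul, (hL m (hA.lt m hm)).map] at hπg
  have hxm : S.x m t ∈ S.US (↑B : Set ℕ) := by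
    rw [eq_inv_of_mul_eq_one_left hπg]
    exact inv_mem hπy
  obtain ⟨Ls, hLs⟩ := hA.exists_enum
  have ht : t = 0 := by
    by_contra ht
    have hP : S.P Ls (Pi.single m t) = S.x m t :=
      S.P_single (fun r hr => hA.lt r ((hLs.2 r).1 hr)) hLs.1 ((hLs.2 m).2 hm) t
    have := S.coef_supp hR hA hLs hBc (by simp [hB]) (hP.symm ▸ hxm) m hm (by simp [ht])
    simp [hB] at this
  subst ht
  rw [S.x_zero (hA.lt m hm), one_mul] at hπg
  rw [(hL m (hA.lt m hm)).zero, one_mul]
  exact ih B (Finset.erase_ssubset hm) hBc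
    (fun p hp q hq hne' => hrel p (Finset.mem_of_mem_erase hp) q (Finset.mem_of_mem_erase hq) hne')
    y hy hπg

variable (hc : IsCentralMap π)
include hc

/-- The relation for a pair separated by the torus. -/
theorem rel_of_torus (hπ : Function.Surjective π) (hS : Rules D F) (hR : RootTable D len)
    {r s : ℕ} (hr : r < D.nroots) (hs : s < D.nroots) (h1 : s ≠ r) (h2 : s ≠ D.neg r)
    (hinj : ∀ g ∈ UA L (insert s (sector D len r s)), π g = 1 → g = 1)
    {k : G} (hk : k ∈ S.Hbar) {d : F} (hd : d ≠ 1) (hkr : ∀ t, k * S.x r t * k⁻¹ = S.x r t)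
    (hks : ∀ u, k * S.x s u * k⁻¹ = S.x s (d * u)) : Rel D L r s := by
  intro t
  set A := insert s (sector D len r s) with hA
  have hAlt : ∀ p ∈ A, p < D.nroots := fun p hp => hp.elim (fun e => e ▸ hs) fun h => h.1
  set f : F → E := fun u => (L r t)⁻¹ * L s u * L r t with hf
  set w : F → E := fun u => L s u * word D L r s t u with hw
  have hwA : ∀ u, w u ∈ UA L A := fun u =>
    mul_mem (L_mem (Set.mem_insert _ _) u) (word_mem hR hr hs h1 h2 (Set.subset_insert _ _) t u)
  have hπf : ∀ u, π (f u) = π (w u) := fun u => by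
    simp only [hf, hw, map_mul, map_inv, (hL r hr).map, (hL s hs).map,
      π_word hL hR hr hs h1 h2]
    rw [mul_assoc, S.comm r hr s hs h1 h2 t u, ← mul_assoc, ← mul_assoc, inv_mul_cancel, one_mul]
  have heq : ∀ a ∈ UA L A, ∀ b ∈ UA L A, π a = π b → a = b := fun a ha b hb e =>
    mul_inv_eq_one.1 (hinj _ (mul_mem ha (inv_mem hb)) (by rw [map_mul, map_inv, e, mul_inv_cancel]))
  have hfadd : ∀ u u', f (u + u') = f u * f u' := fun u u' => by
    simp only [hf, ← (hL s hs).add]
    group
  have hwadd : ∀ u u', w (u + u') = w u * w u' := fun u u' =>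
    heq _ (hwA _) _ (mul_mem (hwA _) (hwA _))
      (by rw [← hπf, hfadd, map_mul π (f u), hπf, hπf, ← map_mul])
  set z : F → E := fun u => f u * (w u)⁻¹ with hz
  have hzc : ∀ u, π (z u) = 1 := fun u => by
    simp only [hz, map_mul, map_inv, hπf, mul_inv_cancel]
  have hzadd : ∀ u u', z (u + u') = z u * z u' := fun u u' => by
    have e : f u' = z u' * w u' := (inv_mul_cancel_right _ _).symm
    show f (u + u') * (w (u + u'))⁻¹ = z u * z u'
    rw [hfadd, hwadd, e, mul_inv_rev, ← mul_assoc (f u), mul_assoc _ (w u'), mul_inv_cancel_left,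
      hc _ (hzc u') (f u), mul_assoc, hc _ (hzc u') (z u)]
  obtain ⟨k', hk'⟩ := hπ k
  have hkL : ∀ p ∈ A, ∀ v, ∃ v', k' * L p v * k'⁻¹ = L p v' := fun p hp v => by
    obtain ⟨a, -, ha, -⟩ := exists_scalar hS hR hk
    exact ⟨_, (hL p (hAlt p hp)).equiv k' (hk'.symm ▸ hk) _ (fun t => hk'.symm ▸ ha p (hAlt p hp) t) v⟩
  have hkA : ∀ y ∈ UA L A, k' * y * k'⁻¹ ∈ UA L A := fun y hy => by
    refine Subgroup.closure_induction ?_ ?_ ?_ ?_ hy
    · rintro _ ⟨p, hp, v, rfl⟩
      obtain ⟨v', e⟩ := hkL p hp v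
      rw [e]
      exact L_mem hp v'
    · simp
    · intro a b _ _ ha hb
      have := mul_mem ha hb
      convert this using 1
      group
    · intro a _ ha
      have := inv_mem ha
      convert this using 1
      group
  have hfk : ∀ u, k' * f u * k'⁻¹ = f (d * u) := fun u => by
    have e1 := (hL r hr).equiv k' (hk'.symm ▸ hk) 1 (fun t => by rw [hk', one_mul]; exact hkr t) t
    have e2 := (hL s hs).equiv k' (hk'.symm ▸ hk) d (fun t => by rw [hk']; exact hks t) u
    rw [one_mul] at e1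
    calc k' * f u * k'⁻¹
        = (k' * L r t * k'⁻¹)⁻¹ * (k' * L s u * k'⁻¹) * (k' * L r t * k'⁻¹) := by
          simp only [hf]; group
      _ = f (d * u) := by rw [e1, e2]
  have hwk : ∀ u, k' * w u * k'⁻¹ = w (d * u) := fun u =>
    heq _ (hkA _ (hwA u)) _ (hwA _)
      (by rw [map_mul, map_mul, ← hπf, ← map_mul, ← map_mul, hfk, hπf])
  have hzk : ∀ u, z (d * u) = z u := fun u => by
    have e : k' * z u * k'⁻¹ = z u := by rw [hc _ (hzc u) k', mul_inv_cancel_right]
    rw [← e]
    calc z (d * u) = f (d * u) * (w (d * u))⁻¹ := rfl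
      _ = (k' * f u * k'⁻¹) * (k' * w u * k'⁻¹)⁻¹ := by rw [hfk, hwk]
      _ = _ := by simp only [hz]; group
  intro u
  have hd' : d - 1 ≠ 0 := sub_ne_zero.2 hd
  have h := hzadd ((d - 1)⁻¹ * u) u
  rw [show (d - 1)⁻¹ * u + u = d * ((d - 1)⁻¹ * u) by field_simp; ring, hzk] at h
  have h1' : z u = 1 := mul_eq_left.1 h.symm
  have h2' : f u = w u := mul_inv_eq_one.1 h1'
  simp only [hf, hw] at h2'
  calc L s u * L r t = L r t * ((L r t)⁻¹ * L s u * L r t) := by group
    _ = _ := by rw [h2', mul_assoc]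

omit hc in
/-- The reversed relation. -/
theorem rel_symm (hR : RootTable D len) {r s : ℕ} (hr : r < D.nroots) (hs : s < D.nroots)
    (h1 : s ≠ r) (h2 : s ≠ D.neg r)
    (hinj : ∀ g ∈ UA L (sector D len r s), π g = 1 → g = 1) (h : Rel D L s r) : Rel D L r s := by
  intro t u
  have h1' : r ≠ D.neg s := fun e => h2 (by rw [e, hR.neg_neg_root hs])
  have e : word D L r s t u = (word D L s r u t)⁻¹ := by
    refine mul_inv_eq_one.1 (hinj _ (mul_mem (word_mem hR hr hs h1 h2 (le_refl _) t u) ?_) ?_)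
    · rw [inv_inv, sector_comm]
      exact word_mem hR hs hr h1.symm h1' (le_refl _) u t
    · have e1 := S.comm r hr s hs h1 h2 t u
      have e2 := S.comm s hs r hr h1.symm h1' u t
      rw [map_mul, map_inv, map_inv, inv_inv, π_word hL hR hr hs h1 h2,
        π_word hL hR hs hr h1.symm h1']
      rw [e1] at e2
      exact (mul_eq_left (a := S.x r t * S.x s u)).1 (by simpa [mul_assoc] using e2.symm)
  rw [e, h u t, mul_inv_cancel_right]

end Cfsg.Agent.Chev.UCE
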